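import Cfsg.Agent.Lib.Helper25.Dec.Defs

/-! Ladder DEC, rung ARI. -/

set_option autoImplicit false

namespace Cfsg.Agent.Lib.Helper25.Dec

open Module Cfsg.Agent.Lib.Helper25.Elu

theorem arI {c a t n : ℕ} (hc : 1 ≤ c) (hat : n = a * t) (x y : Fin t → ℕ)
    (h : ∀ j, a = x j + c * y j) (hsum : ∑ j, x j ≤ n % c) : n % c = t * (a % c) := by
  have hlt : n % c < c := Nat.mod_lt n hc
  have hx : ∀ j, x j = a % c := by
    intro j
    have h1 : x j ≤ ∑ j, x j := Finset.single_le_sum (f := x) (fun _ _ => Nat.zero_le _) (Finset.mem_univ j)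
    have h2 : x j < c := by omega
    rw [h j, Nat.add_mul_mod_self_left, Nat.mod_eq_of_lt h2]
  have hs : ∑ j, x j = t * (a % c) := by
    rw [Finset.sum_congr rfl (fun j _ => hx j)]
    simp
  rw [hs] at hsum
  have h3 : n % c = (t * (a % c)) % c := by
    rw [hat, Nat.mul_comm a t, Nat.mul_mod, Nat.mul_mod t (a % c), Nat.mod_mod]
  rw [h3, Nat.mod_eq_of_lt (by omega)]

theorem ar2 {c a t n k : ℕ} (hc : 1 ≤ c) (hat : n = a * t) (hmod : n % c = t * (a % c))
    (hk : c * k ≤ n) : k ≤ t * (a / c) := by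
  have h1 : n = c * (t * (a / c)) + n % c := by
    rw [hmod]
    have := Nat.div_add_mod a c
    calc n = a * t := hat
      _ = (c * (a / c) + a % c) * t := by rw [this]
      _ = c * (t * (a / c)) + t * (a % c) := by ring
  have hlt : n % c < c := Nat.mod_lt n hc
  by_contra hcon
  have h2 : t * (a / c) + 1 ≤ k := by omega
  have h3 : c * (t * (a / c) + 1) ≤ c * k := Nat.mul_le_mul_left _ h2
  rw [Nat.mul_add, Nat.mul_one] at h3
  omega

theorem arB {c r n k γ : ℕ} (hc : 1 ≤ c) (hcr : c = r - 1) (hr : 2 ≤ r) (hle : n ≤ (n % c) * r)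
    (hsum : γ + c * k = n) : k ≤ γ := by
  have hr' : r = c + 1 := by omega
  subst hr'
  have hdm := Nat.div_add_mod n c
  have hlt : n % c < c := Nat.mod_lt n hc
  set K := n / c with hK
  set m := n % c with hm
  -- c * K + m ≤ m * (c + 1)
  have h1 : c * K ≤ c * m := by
    have : m * (c + 1) = c * m + m := by ring
    omega
  have h2 : K ≤ m := Nat.le_of_mul_le_mul_left h1 hc
  have h3 : k ≤ K := by
    rw [hK, Nat.le_div_iff_mul_le hc, Nat.mul_comm]
    omega
  have h4 : c * k ≤ c * K := Nat.mul_le_mul_left _ h3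
  omega

end Cfsg.Agent.Lib.Helper25.Dec
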