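import Cfsg.Agent.Lib.Helper25.Dec.Defs
import Cfsg.Agent.Lib.Helper25.Elu.CHAIN
import Cfsg.Agent.Lib.Helper25.Elu.SS

/-! Ladder DEC, rung CP. -/

set_option autoImplicit false

namespace Cfsg.Agent.Lib.Helper25.Dec

open Module Cfsg.Agent.Lib.Helper25.Elu

variable {F : Type*} [Field F] {n : ℕ}

/-- from `Elu.exists_chain` (chain `B 0 ≤ … ≤ B k = S`, `dim B j = d j`): `Z j` = an invariant complement of `B j`
in `B (j+1)`: take `Q` invariant with `IsCompl (B j) Q` (`Elu.exists_isInv_isCompl`), `Z j = Q ⊓ B (j+1)`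
(modular law). By induction `⨆_{i<j} Z i = B j`. -/
theorem exists_pieces (T : End F (Fin n → F)) (hss : T.IsSemisimple) (S : Submodule F (Fin n → F))
    (hS : IsInv T S) (d : ℕ) (hd : 1 ≤ d)
    (hmin : ∀ W : Submodule F (Fin n → F), IsInv T W → W ≤ S → W ≠ ⊥ →
      ∃ Z : Submodule F (Fin n → F), IsInv T Z ∧ Z ≤ W ∧ finrank F Z = d) :
    ∃ (k : ℕ) (Z : Fin k → Submodule F (Fin n → F)),
      (∀ j, IsInv T (Z j) ∧ finrank F (Z j) = d ∧ Z j ≤ S) ∧ (⨆ j, Z j) = S ∧
      finrank F S = d * k := by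
  obtain ⟨k, B, hmono, hinv, hfr, hBk⟩ := exists_chain T hss S hS d hd hmin
  choose Q hQinv hQc using fun j => exists_isInv_isCompl hss (hinv j)
  have hsup : ∀ j, B j ⊔ (Q j ⊓ B (j + 1)) = B (j + 1) := by
    intro j
    rw [← sup_inf_assoc_of_le (Q j) (hmono (Nat.le_succ j)), (hQc j).sup_eq_top, top_inf_eq]
  have hdis : ∀ j, B j ⊓ (Q j ⊓ B (j + 1)) = ⊥ := by
    intro j
    rw [← inf_assoc, (hQc j).inf_eq_bot, bot_inf_eq]
  refine ⟨k, fun j => Q j ⊓ B ((j : ℕ) + 1), fun j => ⟨(hQinv j).inf (hinv _), ?_, ?_⟩, ?_, ?_⟩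
  · have h1 := Submodule.finrank_sup_add_finrank_inf_eq (B j) (Q j ⊓ B ((j : ℕ) + 1))
    rw [hsup, hdis, finrank_bot, hfr _ (by have := j.2; omega), hfr _ (by have := j.2; omega)] at h1
    rw [Nat.mul_succ] at h1
    show finrank F ↥(Q j ⊓ B ((j : ℕ) + 1)) = d
    omega
  · rw [← hBk]
    exact inf_le_right.trans (hmono (by have := j.2; omega))
  · apply le_antisymm
    · refine iSup_le fun j => ?_
      rw [← hBk]
      exact inf_le_right.trans (hmono (by have := j.2; omega))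
    · have key : ∀ m, m ≤ k → B m ≤ ⨆ j : Fin k, Q j ⊓ B ((j : ℕ) + 1) := by
        intro m
        induction m with
        | zero =>
          intro _
          have h0 : finrank F (B 0) = 0 := by rw [hfr 0 (Nat.zero_le _), mul_zero]
          rw [Submodule.finrank_eq_zero.1 h0]
          exact bot_le
        | succ m ih =>
          intro hm
          rw [← hsup m]
          exact sup_le (ih (by omega))
            (le_iSup (fun j : Fin k => Q j ⊓ B ((j : ℕ) + 1)) ⟨m, by omega⟩)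
      rw [← hBk]
      exact key k le_rfl
  · rw [← hBk, hfr k le_rfl]

end Cfsg.Agent.Lib.Helper25.Dec
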