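import Cfsg.Agent.Lib.Helper25.Dec.Defs

/-! Ladder DEC: injectivity. -/

set_option autoImplicit false

namespace Cfsg.Agent.Lib.Helper25.Dec

open Module

theorem injective_of_pow {F : Type*} [Field F] {V : Type*} [AddCommGroup V] [Module F V]
    (T : End F V) {r : ℕ} (hr : 0 < r) {c : F} (hc : c ≠ 0) (hT : T ^ r = c • 1) :
    Function.Injective T := by
  rw [← LinearMap.ker_eq_bot, LinearMap.ker_eq_bot']
  intro v hv
  obtain ⟨s, rfl⟩ : ∃ s, r = s + 1 := ⟨r - 1, by omega⟩
  have h1 : (T ^ (s + 1)) v = 0 := by rw [pow_succ, Module.End.mul_apply, hv, map_zero]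
  rw [hT, LinearMap.smul_apply, Module.End.one_apply] at h1
  exact (smul_eq_zero.1 h1).resolve_left hc

end Cfsg.Agent.Lib.Helper25.Dec
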