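import Cfsg.Agent.Lib.Helper25.Dec.Defs

/-! Ladder DEC, rung FIB. -/

set_option autoImplicit false

namespace Cfsg.Agent.Lib.Helper25.Dec

open Module Cfsg.Agent.Lib.Helper25.Elu

/-- `finSigmaFinEquiv : (Σ j, Fin (s j)) ≃ Fin (∑ j, s j)`; `f = Sigma.fst ∘ equiv.symm`. -/
theorem exists_fib {t : ℕ} (s : Fin t → ℕ) {N : ℕ} (h : ∑ j, s j = N) :
    ∃ f : Fin N → Fin t, ∀ j, Fintype.card {u // f u = j} = s j := by
  subst h
  let e : Fin (∑ j, s j) ≃ (Σ j, Fin (s j)) := finSigmaFinEquiv.symm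
  refine ⟨fun u => (e u).1, fun j => ?_⟩
  have e1 : {u // (e u).1 = j} ≃ {x : (Σ j, Fin (s j)) // x.1 = j} :=
    e.subtypeEquiv (fun _ => Iff.rfl)
  rw [Fintype.card_congr e1, Fintype.card_congr (Equiv.sigmaSubtype j), Fintype.card_fin]

/-- induction on `t`. -/
theorem exists_nums {t A k : ℕ} (h : k ≤ t * A) :
    ∃ b : Fin t → ℕ, (∀ j, b j ≤ A) ∧ ∑ j, b j = k := by
  induction t generalizing k with
  | zero =>
    refine ⟨fun _ => 0, fun j => j.elim0, ?_⟩
    simp at h ⊢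
    exact h.symm
  | succ t ih =>
    have h1 : k - min k A ≤ t * A := by
      rw [Nat.succ_mul] at h
      omega
    obtain ⟨b, hb, hs⟩ := ih h1
    refine ⟨Fin.cons (min k A) b, ?_, ?_⟩
    · intro j
      refine Fin.cases ?_ (fun i => ?_) j
      · simp
      · simpa using hb i
    · rw [Fin.sum_univ_succ]
      simp only [Fin.cons_zero, Fin.cons_succ, hs]
      omega

end Cfsg.Agent.Lib.Helper25.Dec
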