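import Cfsg.Agent.Lib.Helper25.Dec.Defs
import Cfsg.Agent.Lib.Helper25.Dec.FIB

/-! Ladder DEC, rung LABA. -/

set_option autoImplicit false

namespace Cfsg.Agent.Lib.Helper25.Dec

open Module Cfsg.Agent.Lib.Helper25.Elu

theorem card_fst_fib {α τ : Type*} [Fintype α] [DecidableEq τ] (g : α → τ) (d : ℕ) (j : τ) :
    Fintype.card {x : α × Fin d // g x.1 = j} = Fintype.card {v // g v = j} * d := by
  have e : {x : α × Fin d // g x.1 = j} ≃ {v // g v = j} × Fin d :=
    { toFun := fun x => (⟨x.1.1, x.2⟩, x.1.2)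
      invFun := fun y => ⟨(y.1.1, y.2), y.1.2⟩
      left_inv := fun _ => rfl
      right_inv := fun _ => rfl }
  rw [Fintype.card_congr e, Fintype.card_prod, Fintype.card_fin]

/-- `b` from `exists_nums` (`A = a / d`), `f₂ : Fin k → Fin t` with fibres `b j`, `f₁ : Fin γ → Fin t` with fibres
`a - d * b j` (their sum is `a t - d k = γ`); `β = Sum.elim f₁ (f₂ ∘ Prod.fst)`. -/
theorem exists_label_a {γ d k a t : ℕ} (hd : 0 < d) (hsum : γ + d * k = a * t) (hk : k ≤ t * (a / d)) :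
    ∃ β : Fin γ ⊕ (Fin k × Fin d) → Fin t, (∀ j, Fintype.card {x // β x = j} = a) ∧
      ∀ j s s', β (Sum.inr (j, s)) = β (Sum.inr (j, s')) := by
  obtain ⟨b, hb, hbs⟩ := exists_nums hk
  obtain ⟨f₂, hf₂⟩ := exists_fib b hbs
  have hdb : ∀ j, d * b j ≤ a := fun j =>
    (Nat.mul_le_mul_left d (hb j)).trans (Nat.mul_div_le a d)
  have hs : ∑ j, (a - d * b j) = γ := by
    have h1 : ∑ j, (a - d * b j) + ∑ j, d * b j = ∑ _j : Fin t, a := by
      rw [← Finset.sum_add_distrib]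
      exact Finset.sum_congr rfl (fun j _ => Nat.sub_add_cancel (hdb j))
    rw [← Finset.mul_sum, hbs] at h1
    simp only [Finset.sum_const, Finset.card_univ, Fintype.card_fin, smul_eq_mul] at h1
    have : t * a = a * t := Nat.mul_comm _ _
    omega
  obtain ⟨f₁, hf₁⟩ := exists_fib (fun j => a - d * b j) hs
  refine ⟨Sum.elim f₁ (fun x => f₂ x.1), ?_, fun _ _ _ => rfl⟩
  intro j
  have e0 : {x // Sum.elim f₁ (fun x : Fin k × Fin d => f₂ x.1) x = j} ≃
      {u // f₁ u = j} ⊕ {x : Fin k × Fin d // f₂ x.1 = j} := Equiv.subtypeSum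
  rw [Fintype.card_congr e0, Fintype.card_sum, hf₁ j, card_fst_fib f₂ d j, hf₂ j]
  have := hdb j
  rw [Nat.mul_comm (b j) d]
  omega

end Cfsg.Agent.Lib.Helper25.Dec
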