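import Cfsg.Agent.Lib.Helper25.Dec.Defs
import Cfsg.Agent.Lib.Helper99.Grouping

/-! Ladder DEC, rung STAB. -/

set_option autoImplicit false

namespace Cfsg.Agent.Lib.Helper25.Dec

open Module Cfsg.Agent.Lib.Helper25.Elu

variable {F : Type*} [Field F] {n : ℕ}

/-- helper99's `blockSpan` API (Lib/Helper99/Grouping.lean: `finrank_blockSpan`, `iSupIndep_blockSpan`,
`iSup_blockSpan`, `map_blockSpan`); `b` is independent because it spans and has `n` members
(`linearIndependent_of_top_le_span_of_card_eq_finrank`). -/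
theorem stab_of_basis {κ : Type*} [Fintype κ] {a t : ℕ} (ha : 0 < a) (ht : 2 ≤ t)
    (T : End F (Fin n → F)) (hT : Function.Injective T) (b : κ → Fin n → F)
    (hspan : Submodule.span F (Set.range b) = ⊤) (hcard : Fintype.card κ = n)
    (β : κ → Fin t) (hfib : ∀ j, Fintype.card {k // β k = j} = a) (σ : Equiv.Perm (Fin t))
    (h : ∀ k, T (b k) ∈ Submodule.span F (b '' (β ⁻¹' {σ (β k)}))) : Stab T a t := by
  classical
  have hli : LinearIndependent F b := by
    apply linearIndependent_of_top_le_span_of_card_eq_finrank hspan.ge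
    rw [hcard]; simp
  refine ⟨Cfsg.Agent.Lib.Helper99.blockSpan (F := F) b β,
    ⟨ht, ha, fun i => ?_, Cfsg.Agent.Lib.Helper99.iSupIndep_blockSpan hli β,
      Cfsg.Agent.Lib.Helper99.iSup_blockSpan hspan β⟩, σ, fun j => ?_⟩
  · rw [Cfsg.Agent.Lib.Helper99.finrank_blockSpan hli β i]
    convert hfib i
  · exact Cfsg.Agent.Lib.Helper99.map_blockSpan hli β (a := a)
      (fun j => by convert hfib j) hT σ h j

end Cfsg.Agent.Lib.Helper25.Dec
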