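import Cfsg.Agent.Lib.Helper25.Dec.Defs
import Cfsg.Agent.Lib.Helper25.Dec.STAB
import Cfsg.Agent.Lib.Helper25.Dec.LABA

/-! Ladder DEC, rung SOP. -/

set_option autoImplicit false

namespace Cfsg.Agent.Lib.Helper25.Dec

open Module Cfsg.Agent.Lib.Helper25.Elu

variable {F : Type*} [Field F] {n : ℕ}

theorem exists_span_eq (Z : Submodule F (Fin n → F)) {d : ℕ} (hZ : finrank F Z = d) :
    ∃ z : Fin d → Fin n → F, Submodule.span F (Set.range z) = Z := by
  let bs := Module.finBasisOfFinrankEq F Z hZ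
  refine ⟨fun s => (bs s : Fin n → F), ?_⟩
  have h1 : Set.range (fun s => (bs s : Fin n → F)) = Z.subtype '' Set.range bs := by
    rw [← Set.range_comp]; rfl
  rw [h1, ← Submodule.map_span, bs.span_eq, Submodule.map_top, Submodule.range_subtype]

/-- choose a spanning family `z j : Fin d → V` of each `Z j` (`Module.finBasisOfFinrankEq`),
`b = Sum.elim u (fun (j, s) => z j s)`, `β` from LABA, `σ = 1`, STAB. -/
theorem stab_of_pieces (T : End F (Fin n → F)) (hT : Function.Injective T) {γ d k a t : ℕ}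
    (ha : 0 < a) (ht : 2 ≤ t) (hd : 0 < d)
    (u : Fin γ → Fin n → F) (hu : ∀ i, IsInv T (Submodule.span F {u i}))
    (Z : Fin k → Submodule F (Fin n → F)) (hZ : ∀ j, IsInv T (Z j) ∧ finrank F (Z j) = d)
    (htop : Submodule.span F (Set.range u) ⊔ (⨆ j, Z j) = ⊤) (hsum : γ + d * k = n)
    (hat : n = a * t) (hk : k ≤ t * (a / d)) : Stab T a t := by
  choose z hz using fun j => exists_span_eq (Z j) (hZ j).2
  obtain ⟨β, hβ, hβc⟩ := exists_label_a (γ := γ) (k := k) hd (by rw [hsum, hat]) hk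
  let b : Fin γ ⊕ (Fin k × Fin d) → Fin n → F := Sum.elim u (fun x => z x.1 x.2)
  have hspan : Submodule.span F (Set.range b) = ⊤ := by
    rw [eq_top_iff, ← htop]
    refine sup_le ?_ (iSup_le fun j => ?_)
    · apply Submodule.span_mono
      rintro _ ⟨i, rfl⟩
      exact ⟨Sum.inl i, rfl⟩
    · rw [← hz j]
      apply Submodule.span_mono
      rintro _ ⟨s, rfl⟩
      exact ⟨Sum.inr (j, s), rfl⟩
  refine stab_of_basis ha ht T hT b hspan ?_ β hβ 1 ?_
  · simp only [Fintype.card_sum, Fintype.card_prod, Fintype.card_fin]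
    rw [← hsum, Nat.mul_comm k d]
  · rintro (i | ⟨j, s⟩)
    · have h1 : T (u i) ∈ Submodule.span F {u i} := hu i _ (Submodule.mem_span_singleton_self _)
      refine Submodule.span_mono ?_ h1
      rintro _ rfl
      exact ⟨Sum.inl i, rfl, rfl⟩
    · have h0 : z j s ∈ Z j := by
        rw [← hz j]; exact Submodule.subset_span ⟨s, rfl⟩
      have h1 : T (z j s) ∈ Z j := (hZ j).1 _ h0
      rw [← hz j] at h1
      refine Submodule.span_mono ?_ h1
      rintro _ ⟨s', rfl⟩
      exact ⟨Sum.inr (j, s'), hβc j s' s, rfl⟩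

end Cfsg.Agent.Lib.Helper25.Dec
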