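import Cfsg.Agent.Lib.Helper25.Dec.Defs
import Cfsg.Agent.Lib.Helper25.Dec.CP
import Cfsg.Agent.Lib.Helper25.Dec.INJ
import Cfsg.Agent.Lib.Helper25.Dec.SOP
import Cfsg.Agent.Lib.Helper25.Elu.MIN1
import Cfsg.Agent.Lib.Helper25.Elu.SS

/-! Ladder DEC, rung BW1A. -/

set_option autoImplicit false

namespace Cfsg.Agent.Lib.Helper25.Dec

open Module Cfsg.Agent.Lib.Helper25.Elu

variable {F : Type*} [Field F] {n : ℕ}

/-- CP with `S = ⊤`, `d = 1` (`Elu.exists_isInv_finrank_one`), then SOP with `γ = 0`, `d = 1`, `k = n`. -/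
theorem stab_of_pow_eq_pow [Fintype F] (T : End F (Fin n → F)) {r : ℕ} [Fact r.Prime]
    (hrF : (r : F) ≠ 0) (hr1 : r ∣ Fintype.card F - 1) {b : F} (hb : b ≠ 0) (hT : T ^ r = b ^ r • 1)
    {a t : ℕ} (ha : 0 < a) (ht : 2 ≤ t) (hat : n = a * t) : Stab T a t := by
  have hr : r.Prime := Fact.out
  have hc : b ^ r ≠ 0 := pow_ne_zero r hb
  have hss := isSemisimple_of_pow T hrF hc hT
  obtain ⟨k, Z, hZ, hsup, hk⟩ := exists_pieces T hss ⊤ (isInv_top T) 1 le_rfl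
    (fun W hW _ hne => exists_isInv_finrank_one T hr1 hb hT W hW hne)
  have hkn : k = n := by
    rw [finrank_top, one_mul] at hk
    rw [← hk]; simp
  refine stab_of_pieces T (injective_of_pow T hr.pos hc hT) (γ := 0) (d := 1) (k := k) ha ht
    Nat.one_pos (fun i => i.elim0) (fun i => i.elim0) Z (fun j => ⟨(hZ j).1, (hZ j).2.1⟩) ?_ ?_ hat ?_
  · rw [hsup]; simp
  · omega
  · rw [Nat.div_one, hkn, hat, Nat.mul_comm]

end Cfsg.Agent.Lib.Helper25.Dec
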