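import Cfsg.Agent.Lib.Helper25.Dec.Defs
import Cfsg.Agent.Lib.Helper25.Dec.CP
import Cfsg.Agent.Lib.Helper25.Dec.INJ
import Cfsg.Agent.Lib.Helper25.Dec.SOP
import Cfsg.Agent.Lib.Helper25.Dec.ARI
import Cfsg.Agent.Lib.Helper25.Elu.SPLIT
import Cfsg.Agent.Lib.Helper25.Elu.MINI
import Cfsg.Agent.Lib.Helper25.Elu.SS
import Cfsg.Agent.Lib.Helper25.Elu.ORD

/-! Ladder DEC, rung BW2. -/

set_option autoImplicit false

namespace Cfsg.Agent.Lib.Helper25.Dec

open Module Cfsg.Agent.Lib.Helper25.Elu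

variable {F : Type*} [Field F] {n : ℕ}

/-- the common structure: a spanning family of fixed vectors and pieces without fixed vectors. -/
theorem exists_structure [Fintype F] {p : ℕ} [Fact p.Prime] [CharP F p] {r : ℕ} [Fact r.Prime]
    (hrp : r ≠ p) (T : End F (Fin n → F)) (hT : T ^ r = 1) :
    ∃ (γ k : ℕ) (u : Fin γ → Fin n → F) (Z : Fin k → Submodule F (Fin n → F)),
      (∀ i, T (u i) = u i) ∧
      (∀ j, IsInv T (Z j) ∧ finrank F (Z j) = ordq F r ∧ ∀ w ∈ Z j, T w = w → w = 0) ∧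
      Submodule.span F (Set.range u) ⊔ (⨆ j, Z j) = ⊤ ∧ γ + ordq F r * k = n := by
  have hrF : (r : F) ≠ 0 := natCast_ne_zero hrp
  have hss := isSemisimple_of_pow T hrF one_ne_zero (by rw [hT, one_smul])
  obtain ⟨D₀, hD₀, hCD, -⟩ := exists_split T hrF hT
  have hfix : ∀ w ∈ D₀, T w = w → w = 0 := by
    intro w hw hTw
    have h1 : w ∈ LinearMap.ker (T - 1) := by
      rw [LinearMap.mem_ker, LinearMap.sub_apply, Module.End.one_apply, hTw, sub_self]
    exact (Submodule.disjoint_def.1 hCD.disjoint) w h1 hw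
  obtain ⟨k, Z, hZ, hsup, hk⟩ := exists_pieces T hss D₀ hD₀ (ordq F r) (ordq_pos hrp)
    (fun W hW hWD hne => exists_isInv_finrank_ordq T hrp hT W hW hne
      (fun w hw => hfix w (hWD hw)))
  obtain ⟨u, hu⟩ := exists_span_eq (LinearMap.ker (T - 1)) rfl
  refine ⟨_, k, u, Z, ?_, fun j => ⟨(hZ j).1, (hZ j).2.1, fun w hw => hfix w ((hZ j).2.2 hw)⟩, ?_, ?_⟩
  · intro i
    have h1 : u i ∈ LinearMap.ker (T - 1) := by
      rw [← hu]; exact Submodule.subset_span ⟨i, rfl⟩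
    rw [LinearMap.mem_ker, LinearMap.sub_apply, Module.End.one_apply, sub_eq_zero] at h1
    exact h1
  · rw [hu, hsup]; exact hCD.sup_eq_top
  · have := Submodule.finrank_add_eq_of_isCompl hCD
    rw [hk] at this
    rw [this]; simp

/-- `C = ker (T - 1)`, `D₀` from `Elu.exists_split`; CP with `S = D₀`, `d = c = ordq` (`Elu.exists_isInv_finrank_ordq`);
`u` = a basis of `C` (`γ = dim C`); SOP; `k ≤ t (a / c)` by `ar2`. -/
theorem stab_of_pow_eq_one [Fintype F] {p : ℕ} [Fact p.Prime] [CharP F p] {r : ℕ} [Fact r.Prime]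
    (hrp : r ≠ p) (T : End F (Fin n → F)) (hT : T ^ r = 1) {a t : ℕ} (ha : 0 < a) (ht : 2 ≤ t)
    (hat : n = a * t) (hca : ordq F r ≤ a) (hmod : n % ordq F r = t * (a % ordq F r)) :
    Stab T a t := by
  have hr : r.Prime := Fact.out
  obtain ⟨γ, k, u, Z, hu, hZ, htop, hsum⟩ := exists_structure hrp T hT
  refine stab_of_pieces T (injective_of_pow T hr.pos one_ne_zero (by rw [hT, one_smul])) ha ht
    (ordq_pos hrp) u ?_ Z (fun j => ⟨(hZ j).1, (hZ j).2.1⟩) htop hsum hat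
    (ar2 (ordq_pos hrp) hat hmod (by omega))
  intro i v hv
  obtain ⟨c, rfl⟩ := Submodule.mem_span_singleton.1 hv
  rw [map_smul, hu i]
  exact hv

end Cfsg.Agent.Lib.Helper25.Dec
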