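import Cfsg.Agent.Lib.Helper25.Dec.Defs
import Cfsg.Agent.Lib.Helper25.Elu.DIVI
import Cfsg.Agent.Lib.Helper25.Elu.ORD

/-! Ladder DEC, rung CYCB. -/

set_option autoImplicit false

namespace Cfsg.Agent.Lib.Helper25.Dec

open Module Cfsg.Agent.Lib.Helper25.Elu

variable {F : Type*} [Field F] {n : ℕ}

/-- `S` = the span, invariant as `T^r = 1`. `∑_{s<r} T^s (u + d) = r u + ∑ T^s d`, and `∑ T^s d ∈ Z` is fixed by `T`,
so it is `0`: `u ∈ S`, `d ∈ S`. `S ⊓ Z` is invariant, nonzero, without fixed vectors: `ordq ∣ dim (S ⊓ Z)`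
(`Elu.ordq_dvd_finrank`), so `S ⊓ Z = Z`. -/
theorem le_span_pow [Fintype F] {p : ℕ} [Fact p.Prime] [CharP F p] {r : ℕ} [Fact r.Prime]
    (hrp : r ≠ p) (T : End F (Fin n → F)) (hT : T ^ r = 1) (Z : Submodule F (Fin n → F))
    (hZ : IsInv T Z) (hZc : finrank F Z = ordq F r) (hfix : ∀ w ∈ Z, T w = w → w = 0)
    {u d : Fin n → F} (hu : T u = u) (hd : d ∈ Z) (hd0 : d ≠ 0) :
    Submodule.span F {u} ⊔ Z ≤ Submodule.span F (Set.range fun s : Fin r => (T ^ (s : ℕ)) (u + d)) := by
  have hr : r.Prime := Fact.out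
  have hrF : (r : F) ≠ 0 := natCast_ne_zero hrp
  set w := u + d with hw
  set S := Submodule.span F (Set.range fun s : Fin r => (T ^ (s : ℕ)) w) with hS
  have hmem : ∀ s : ℕ, s < r → (T ^ s) w ∈ S := fun s hs => Submodule.subset_span ⟨⟨s, hs⟩, rfl⟩
  have hwS : w ∈ S := by simpa using hmem 0 hr.pos
  have hinv : IsInv T S := by
    intro v hv
    induction hv using Submodule.span_induction with
    | mem x hx =>
      obtain ⟨s, rfl⟩ := hx
      by_cases hs : (s : ℕ) + 1 < r
      · have := hmem _ hs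
        rwa [pow_succ', Module.End.mul_apply] at this
      · have hs' : (s : ℕ) + 1 = r := by have := s.2; omega
        have : T ((T ^ (s : ℕ)) w) = w := by
          rw [← Module.End.mul_apply, ← pow_succ', hs', hT, Module.End.one_apply]
        rw [this]
        exact hwS
    | zero => rw [map_zero]; exact S.zero_mem
    | add x y _ _ hx hy => rw [map_add]; exact S.add_mem hx hy
    | smul c x _ hx => rw [map_smul]; exact S.smul_mem c hx
  obtain ⟨N, hN⟩ : ∃ N : End F (Fin n → F), N = ∑ j ∈ Finset.range r, T ^ j := ⟨_, rfl⟩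
  have h1 : (T - 1) * N = 0 := by rw [hN, mul_geom_sum, hT, sub_self]
  have hTN : ∀ v, T (N v) = N v := by
    intro v
    have := congrArg (fun f : End F (Fin n → F) => f v) h1
    simp only [Module.End.mul_apply, LinearMap.sub_apply, Module.End.one_apply,
      LinearMap.zero_apply] at this
    exact sub_eq_zero.1 this
  have hNd : N d = 0 := by
    apply hfix _ _ (hTN d)
    rw [hN, LinearMap.sum_apply]
    exact Submodule.sum_mem _ fun j _ => hZ.pow j d hd
  have hpow : ∀ j : ℕ, (T ^ j) u = u := by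
    intro j
    induction j with
    | zero => simp
    | succ j ih => rw [pow_succ, Module.End.mul_apply, hu, ih]
  have hNu : N u = (r : F) • u := by
    rw [hN, LinearMap.sum_apply, Finset.sum_congr rfl (fun j _ => hpow j), Finset.sum_const,
      Finset.card_range, Nat.cast_smul_eq_nsmul]
  have hNw : N w ∈ S := by
    rw [hN, LinearMap.sum_apply]
    exact Submodule.sum_mem _ fun j hj => hmem j (Finset.mem_range.1 hj)
  have huS : u ∈ S := by
    rw [hw, map_add, hNd, add_zero, hNu] at hNw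
    have := S.smul_mem (r : F)⁻¹ hNw
    rwa [smul_smul, inv_mul_cancel₀ hrF, one_smul] at this
  have hdS : d ∈ S := by
    have := S.sub_mem hwS huS
    rwa [hw, add_sub_cancel_left] at this
  have hdvd := ordq_dvd_finrank T hrp hT (S ⊓ Z) (hinv.inf hZ) (fun x hx => hfix x hx.2)
  have hpos : 0 < finrank F ↥(S ⊓ Z) := by
    rw [Module.finrank_pos_iff_exists_ne_zero]
    exact ⟨⟨d, hdS, hd⟩, fun h => hd0 (congrArg Subtype.val h)⟩
  have hle : finrank F ↥(S ⊓ Z) ≤ finrank F Z := Submodule.finrank_mono inf_le_right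
  have heq : S ⊓ Z = Z := by
    apply Submodule.eq_of_le_of_finrank_eq inf_le_right
    have := Nat.le_of_dvd hpos hdvd
    omega
  refine sup_le ?_ ?_
  · rw [Submodule.span_singleton_le_iff_mem]; exact huS
  · rw [← heq]; exact inf_le_left

end Cfsg.Agent.Lib.Helper25.Dec
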