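import Cfsg.Agent.Lib.Helper25.Dec.Defs
import Cfsg.Agent.Lib.Helper25.Dec.CP
import Cfsg.Agent.Lib.Helper25.Dec.INJ
import Cfsg.Agent.Lib.Helper25.Dec.BW2
import Cfsg.Agent.Lib.Helper25.Dec.CYCB
import Cfsg.Agent.Lib.Helper25.Dec.STAB
import Cfsg.Agent.Lib.Helper25.Dec.ARI
import Cfsg.Agent.Lib.Helper25.Elu.SPLIT
import Cfsg.Agent.Lib.Helper25.Elu.MINI
import Cfsg.Agent.Lib.Helper25.Elu.SS
import Cfsg.Agent.Lib.Helper25.Elu.ORD

/-! Ladder DEC, rung BWB. -/

set_option autoImplicit false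

namespace Cfsg.Agent.Lib.Helper25.Dec

open Module Cfsg.Agent.Lib.Helper25.Elu

variable {F : Type*} [Field F] {n : ℕ}

theorem pow_finRotate {V : Type*} [AddCommGroup V] [Module F V] (T : End F V) {r : ℕ} {z : F}
    (hT : T ^ r = z • 1) (s : Fin r) :
    ∃ c : F, T * T ^ (s : ℕ) = c • T ^ ((finRotate r s : Fin r) : ℕ) ∧ (z = 1 → c = 1) := by
  obtain ⟨m, rfl⟩ : ∃ m, r = m + 1 := ⟨r - 1, by have := s.2; omega⟩
  rw [coe_finRotate]
  split_ifs with h
  · refine ⟨z, ?_, fun h => h⟩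
    rw [h, Fin.val_last, ← pow_succ', hT, pow_zero]
  · exact ⟨1, by rw [one_smul, pow_succ'], fun _ => rfl⟩

/-- `C`, `D₀`, pieces `Z j ≤ D₀` (`j < k`, dimension `c = r - 1`) as in BW2; `γ = dim C ≥ k` (`arB`); `u : Fin γ → V` a basis of
`C`; `0 ≠ d j ∈ Z j`. `κ = (Fin k × Fin r) ⊕ Fin (γ - k)`, `b (inl (j, s)) = T^s (u j + d j)`, `b (inr v) = u (k + v)`:
spans by CYCB, `|κ| = k r + γ - k = n`. `T` permutes `b` by `π = (id × finRotate r) ⊕ id`; `β : κ ≃ Fin n`,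
`σ = β⁻¹ ≫ π ≫ β`; STAB with `a = 1`, `t = n`. -/
theorem stab_one_of_pow_eq_one [Fintype F] {p : ℕ} [Fact p.Prime] [CharP F p] {r : ℕ} [Fact r.Prime]
    (hrp : r ≠ p) (T : End F (Fin n → F)) (hT : T ^ r = 1) (hn : 2 ≤ n) (hc1 : 1 < ordq F r)
    (hc : ordq F r = r - 1) (hle : n ≤ (n % ordq F r) * r) : Stab T 1 n := by
  classical
  have hr : r.Prime := Fact.out
  obtain ⟨γ, k, u, Z, hu, hZ, htop, hsum⟩ := exists_structure hrp T hT
  have hkγ : k ≤ γ := arB (by omega) hc hr.two_le hle hsum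
  have hex : ∀ j, ∃ d ∈ Z j, d ≠ 0 := by
    intro j
    have hpos : 0 < finrank F (Z j) := by rw [(hZ j).2.1]; omega
    obtain ⟨x, hx⟩ := Module.finrank_pos_iff_exists_ne_zero.1 hpos
    exact ⟨x, x.2, fun h => hx (Subtype.ext h)⟩
  choose d hdZ hd0 using hex
  let w : Fin k → Fin n → F := fun j => u ⟨j, lt_of_lt_of_le j.2 hkγ⟩ + d j
  let b : (Fin k × Fin r) ⊕ Fin (γ - k) → Fin n → F :=
    Sum.elim (fun x => (T ^ (x.2 : ℕ)) (w x.1)) (fun v => u ⟨k + v, by have := v.2; omega⟩)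
  have hblock : ∀ j : Fin k, Submodule.span F {u ⟨j, lt_of_lt_of_le j.2 hkγ⟩} ⊔ Z j ≤
      Submodule.span F (Set.range b) := by
    intro j
    refine (le_span_pow hrp T hT (Z j) (hZ j).1 (hZ j).2.1 (hZ j).2.2 (hu _) (hdZ j) (hd0 j)).trans ?_
    apply Submodule.span_mono
    rintro _ ⟨s, rfl⟩
    exact ⟨Sum.inl (j, s), rfl⟩
  have hspan : Submodule.span F (Set.range b) = ⊤ := by
    rw [eq_top_iff, ← htop]
    refine sup_le ?_ (iSup_le fun j => le_sup_right.trans (hblock j))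
    rw [Submodule.span_le]
    rintro _ ⟨i, rfl⟩
    by_cases hi : (i : ℕ) < k
    · exact (le_sup_left.trans (hblock ⟨i, hi⟩)) (Submodule.mem_span_singleton_self _)
    · apply Submodule.subset_span
      refine ⟨Sum.inr ⟨(i : ℕ) - k, by have := i.2; omega⟩, ?_⟩
      show u _ = u i
      congr 1
      apply Fin.ext
      show k + ((i : ℕ) - k) = i
      omega
  have hcard : Fintype.card ((Fin k × Fin r) ⊕ Fin (γ - k)) = n := by
    simp only [Fintype.card_sum, Fintype.card_prod, Fintype.card_fin]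
    have hr' : r = ordq F r + 1 := by have := hr.two_le; omega
    have : k * r = ordq F r * k + k := by
      conv_lhs => rw [hr']
      ring
    omega
  let e : (Fin k × Fin r) ⊕ Fin (γ - k) ≃ Fin n := Fintype.equivFinOfCardEq hcard
  let π : Equiv.Perm ((Fin k × Fin r) ⊕ Fin (γ - k)) :=
    Equiv.sumCongr ((Equiv.refl _).prodCongr (finRotate r)) (Equiv.refl _)
  refine stab_of_basis Nat.one_pos hn T
    (injective_of_pow T hr.pos one_ne_zero (by rw [hT, one_smul])) b hspan hcard e ?_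
    (e.symm.trans (π.trans e)) ?_
  · intro j
    rw [Fintype.card_eq_one_iff]
    exact ⟨⟨e.symm j, by simp⟩, fun y => Subtype.ext (e.injective (by rw [y.2]; simp))⟩
  · intro x
    have hTb : T (b x) = b (π x) := by
      rcases x with ⟨j, s⟩ | v
      · obtain ⟨c, hc1, hc2⟩ := pow_finRotate T (z := 1) (by rw [hT, one_smul]) s
        rw [hc2 rfl, one_smul] at hc1
        show T ((T ^ (s : ℕ)) (w j)) = (T ^ ((finRotate r s : Fin r) : ℕ)) (w j)
        rw [← hc1, Module.End.mul_apply]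
      · exact hu _
    rw [hTb]
    apply Submodule.subset_span
    exact ⟨π x, by simp, rfl⟩

end Cfsg.Agent.Lib.Helper25.Dec
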