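import Cfsg.Agent.Lib.Helper25.Dec.Defs
import Cfsg.Agent.Lib.Helper25.Elu.DIVR

/-! Ladder DEC, rung CYCR. -/

set_option autoImplicit false

namespace Cfsg.Agent.Lib.Helper25.Dec

open Module Cfsg.Agent.Lib.Helper25.Elu

variable {F : Type*} [Field F] {n : ℕ}

/-- the span is invariant (`T^r w = z w`), nonzero, inside `Z`, of dimension divisible by `r`
(`Elu.dvd_finrank_of_not_pow`), so it is `Z`. -/
theorem span_pow_eq (T : End F (Fin n → F)) {r : ℕ} (hr : r.Prime) {z : F}
    (hz : ∀ a : F, a ^ r ≠ z) (hT : T ^ r = z • 1) (Z : Submodule F (Fin n → F)) (hZ : IsInv T Z)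
    (hZr : finrank F Z = r) {w : Fin n → F} (hw : w ∈ Z) (hw0 : w ≠ 0) :
    Submodule.span F (Set.range fun s : Fin r => (T ^ (s : ℕ)) w) = Z := by
  set S := Submodule.span F (Set.range fun s : Fin r => (T ^ (s : ℕ)) w) with hS
  have hSZ : S ≤ Z := by
    rw [hS, Submodule.span_le]
    rintro _ ⟨s, rfl⟩
    exact hZ.pow _ w hw
  have hwS : w ∈ S := by
    apply Submodule.subset_span
    exact ⟨⟨0, hr.pos⟩, by simp⟩
  have hinv : IsInv T S := by
    intro v hv
    induction hv using Submodule.span_induction with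
    | mem x hx =>
      obtain ⟨s, rfl⟩ := hx
      by_cases hs : (s : ℕ) + 1 < r
      · apply Submodule.subset_span
        exact ⟨⟨(s : ℕ) + 1, hs⟩, by simp only [pow_succ', Module.End.mul_apply]⟩
      · have hs' : (s : ℕ) + 1 = r := by have := s.2; omega
        have : T ((T ^ (s : ℕ)) w) = z • w := by
          rw [← Module.End.mul_apply, ← pow_succ', hs', hT, LinearMap.smul_apply,
            Module.End.one_apply]
        rw [this]
        exact S.smul_mem z hwS
    | zero => rw [map_zero]; exact S.zero_mem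
    | add x y _ _ hx hy => rw [map_add]; exact S.add_mem hx hy
    | smul c x _ hx => rw [map_smul]; exact S.smul_mem c hx
  have hdvd := dvd_finrank_of_not_pow T hr hz hT S hinv
  have hpos : 0 < finrank F S := by
    rw [Module.finrank_pos_iff_exists_ne_zero]
    exact ⟨⟨w, hwS⟩, fun h => hw0 (congrArg Subtype.val h)⟩
  have hle : finrank F S ≤ r := hZr ▸ Submodule.finrank_mono hSZ
  have heq : finrank F S = r := le_antisymm hle (Nat.le_of_dvd hpos hdvd)
  exact Submodule.eq_of_le_of_finrank_eq hSZ (by rw [heq, hZr])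

end Cfsg.Agent.Lib.Helper25.Dec
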