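import Cfsg.Agent.Lib.Helper25.Dec.Defs
import Cfsg.Agent.Lib.Helper25.Dec.FIB

/-! Ladder DEC, rung LABR. -/

set_option autoImplicit false

namespace Cfsg.Agent.Lib.Helper25.Dec

open Module Cfsg.Agent.Lib.Helper25.Elu

/-- `t = r t'`, `k = a t'`, `g : Fin k → Fin t'` with fibres `a` (FIB), `e : Fin t' × Fin r ≃ Fin t`
(`finProdFinEquiv`), `β (j, s) = e (g j, s)`, `σ = e⁻¹ ≫ (id × finRotate r) ≫ e`. -/
theorem exists_label_r {k r a t : ℕ} (hr : 0 < r) (hk : k * r = a * t) (hrt : r ∣ t) :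
    ∃ (β : Fin k × Fin r → Fin t) (σ : Equiv.Perm (Fin t)),
      (∀ j, Fintype.card {x // β x = j} = a) ∧
      ∀ j (s : Fin r), β (j, finRotate r s) = σ (β (j, s)) := by
  obtain ⟨t', rfl⟩ := hrt
  have hk' : k = a * t' := by
    have h1 : k * r = (a * t') * r := by rw [hk]; ring
    exact Nat.eq_of_mul_eq_mul_right hr h1
  obtain ⟨g, hg⟩ := exists_fib (fun _ : Fin t' => a) (N := k) (by simp [hk', Nat.mul_comm])
  let e : Fin t' × Fin r ≃ Fin (r * t') := finProdFinEquiv.trans (finCongr (Nat.mul_comm _ _))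
  refine ⟨fun x => e (g x.1, x.2),
    (e.symm.trans ((Equiv.refl (Fin t')).prodCongr (finRotate r))).trans e, ?_, ?_⟩
  · intro j
    obtain ⟨⟨j₁, j₂⟩, rfl⟩ := e.surjective j
    have e1 : {x : Fin k × Fin r // e (g x.1, x.2) = e (j₁, j₂)} ≃ {v // g v = j₁} :=
      { toFun := fun x => ⟨x.1.1, by
          have := e.injective x.2
          exact (Prod.mk.inj this).1⟩
        invFun := fun v => ⟨(v.1, j₂), by rw [v.2]⟩
        left_inv := fun x => by
          have := e.injective x.2
          have h2 := (Prod.mk.inj this).2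
          apply Subtype.ext
          exact Prod.ext rfl h2.symm
        right_inv := fun _ => rfl }
    rw [Fintype.card_congr e1, hg j₁]
  · intro j s
    simp

end Cfsg.Agent.Lib.Helper25.Dec
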