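import Cfsg.Agent.Lib.Helper25.Dec.Defs
import Cfsg.Agent.Lib.Helper25.Dec.CP
import Cfsg.Agent.Lib.Helper25.Dec.INJ
import Cfsg.Agent.Lib.Helper25.Dec.BWB
import Cfsg.Agent.Lib.Helper25.Dec.SOP
import Cfsg.Agent.Lib.Helper25.Dec.CYCR
import Cfsg.Agent.Lib.Helper25.Dec.LABR
import Cfsg.Agent.Lib.Helper25.Dec.STAB
import Cfsg.Agent.Lib.Helper25.Elu.MINR
import Cfsg.Agent.Lib.Helper25.Elu.SS

/-! Ladder DEC, rung BW1B. -/

set_option autoImplicit false

namespace Cfsg.Agent.Lib.Helper25.Dec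

open Module Cfsg.Agent.Lib.Helper25.Elu

variable {F : Type*} [Field F] {n : ℕ}

/-- CP with `S = ⊤`, `d = r` (`Elu.exists_isInv_finrank_r`): `n = r k`. `r ∣ a t`. If `r ∣ a`: SOP with `γ = 0`, `d = r`
(`k = t (a / r)`). If `r ∣ t`: pick `0 ≠ w j ∈ Z j`, `b (j, s) = T^s (w j)` spans (CYCR), LABR gives `β, σ`;
`T (b (j, s)) = b (j, s+1)` or `z • b (j, 0)`, in both cases a multiple of `b (j, finRotate r s)`; STAB. -/
theorem stab_of_not_pow (T : End F (Fin n → F)) {r : ℕ} (hr : r.Prime) (hrF : (r : F) ≠ 0) {z : F}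
    (hz : ∀ a : F, a ^ r ≠ z) (hT : T ^ r = z • 1)
    {a t : ℕ} (ha : 0 < a) (ht : 2 ≤ t) (hat : n = a * t) : Stab T a t := by
  have hz0 : z ≠ 0 := by
    intro h
    exact hz 0 (by rw [h, zero_pow hr.ne_zero])
  have hss := isSemisimple_of_pow T hrF hz0 hT
  have hinj := injective_of_pow T hr.pos hz0 hT
  obtain ⟨k, Z, hZ, hsup, hk⟩ := exists_pieces T hss ⊤ (isInv_top T) r hr.one_lt.le
    (fun W hW _ hne => exists_isInv_finrank_r T hr hz hT W hW hne)
  have hkn : n = r * k := by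
    rw [finrank_top] at hk
    rw [← hk]; simp
  have hdvd : r ∣ a * t := by rw [← hat, hkn]; exact Dvd.intro k rfl
  rcases (Nat.Prime.dvd_mul hr).1 hdvd with hra | hrt
  · obtain ⟨a', rfl⟩ := hra
    refine stab_of_pieces T hinj (γ := 0) (d := r) (k := k) ha ht hr.pos
      (fun i => i.elim0) (fun i => i.elim0) Z (fun j => ⟨(hZ j).1, (hZ j).2.1⟩) ?_ ?_ hat ?_
    · rw [hsup]; simp
    · omega
    · rw [Nat.mul_div_cancel_left _ hr.pos]
      have h1 : r * k = r * (a' * t) := by rw [← hkn, hat]; ring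
      have := Nat.eq_of_mul_eq_mul_left hr.pos h1
      rw [this, Nat.mul_comm]
  · have hex : ∀ j, ∃ d ∈ Z j, d ≠ 0 := by
      intro j
      have hpos : 0 < finrank F (Z j) := by rw [(hZ j).2.1]; exact hr.pos
      obtain ⟨x, hx⟩ := Module.finrank_pos_iff_exists_ne_zero.1 hpos
      exact ⟨x, x.2, fun h => hx (Subtype.ext h)⟩
    choose w hwZ hw0 using hex
    obtain ⟨β, σ, hβ, hβσ⟩ := exists_label_r (k := k) (a := a) hr.pos
      (by rw [Nat.mul_comm, ← hkn, hat]) hrt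
    let b : Fin k × Fin r → Fin n → F := fun x => (T ^ (x.2 : ℕ)) (w x.1)
    have hspan : Submodule.span F (Set.range b) = ⊤ := by
      rw [eq_top_iff, ← hsup]
      refine iSup_le fun j => ?_
      rw [← span_pow_eq T hr hz hT (Z j) (hZ j).1 (hZ j).2.1 (hwZ j) (hw0 j)]
      apply Submodule.span_mono
      rintro _ ⟨s, rfl⟩
      exact ⟨(j, s), rfl⟩
    refine stab_of_basis ha ht T hinj b hspan ?_ β hβ σ ?_
    · simp only [Fintype.card_prod, Fintype.card_fin]
      rw [hkn, Nat.mul_comm]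
    · rintro ⟨j, s⟩
      obtain ⟨c, hc1, -⟩ := pow_finRotate T hT s
      have hTb : T (b (j, s)) = c • b (j, finRotate r s) := by
        show T ((T ^ (s : ℕ)) (w j)) = c • (T ^ ((finRotate r s : Fin r) : ℕ)) (w j)
        rw [← Module.End.mul_apply, hc1, LinearMap.smul_apply]
      rw [hTb]
      apply Submodule.smul_mem
      apply Submodule.subset_span
      exact ⟨(j, finRotate r s), hβσ j s, rfl⟩

end Cfsg.Agent.Lib.Helper25.Dec
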