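import Cfsg.Agent.Lib.Helper25.Dec.Defs
import Cfsg.Agent.Lib.Helper99.Grouping

/-! Ladder DEC, rung CNTD. -/

set_option autoImplicit false

namespace Cfsg.Agent.Lib.Helper25.Dec

open Module Cfsg.Agent.Lib.Helper25.Elu Cfsg.Agent.Lib.Helper99

theorem card_fam {F : Type*} [Field F] [Fintype F] {n a t : ℕ} (hat : n = a * t) :
    Nat.card {s : Fin t × Fin a → (Fin n → F) // LinearIndependent F s} =
      ∏ j : Fin n, (Fintype.card F ^ n - Fintype.card F ^ (j : ℕ)) := by
  have e : Fin n ≃ Fin t × Fin a :=
    (finCongr (by rw [hat, mul_comm])).trans finProdFinEquiv.symm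
  have h := card_linearIndependent (K := F) (V := Fin n → F) (k := n) (by simp)
  rw [Module.finrank_fin_fun] at h
  rw [← h]
  apply Nat.card_congr
  refine Equiv.subtypeEquiv (Equiv.arrowCongr e.symm (Equiv.refl _)) ?_
  intro s
  exact (linearIndependent_equiv e (f := s)).symm

theorem card_fst_fiber {a t : ℕ} (j : Fin t) :
    Fintype.card {k : Fin t × Fin a // k.1 = j} = a := by
  have e : {k : Fin t × Fin a // k.1 = j} ≃ Fin a :=
    { toFun := fun k => k.1.2
      invFun := fun k => ⟨(j, k), rfl⟩
      left_inv := by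
        rintro ⟨⟨i, k⟩, h⟩
        simp only at h
        subst h
        rfl
      right_inv := fun k => rfl }
  rw [Fintype.card_congr e, Fintype.card_fin]

theorem decomp_of_fam {F : Type*} [Field F] {n a t : ℕ} (hat : n = a * t) (ha : 1 ≤ a)
    (ht : 2 ≤ t) {s : Fin t × Fin a → (Fin n → F)} (hs : LinearIndependent F s) :
    Cfsg.Geo.IsMDecomposition a (blockSpan (F := F) s Prod.fst) where
  two_le := ht
  pos := ha
  finrank_eq := fun j => by rw [finrank_blockSpan hs, card_fst_fiber]
  indep := iSupIndep_blockSpan hs _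
  iSup_eq_top := by
    apply iSup_blockSpan
    apply hs.span_eq_top_of_card_eq_finrank'
    rw [Module.finrank_fin_fun, Fintype.card_prod, Fintype.card_fin, Fintype.card_fin, hat, mul_comm]

theorem blockSpan_fst_eq {F : Type*} [Field F] {n a t : ℕ} (s : Fin t × Fin a → (Fin n → F))
    (j : Fin t) :
    blockSpan (F := F) s Prod.fst j = Submodule.span F (Set.range fun k => s (j, k)) := by
  unfold blockSpan
  congr 1
  ext v
  constructor
  · rintro ⟨⟨i, k⟩, h, rfl⟩
    have h : i = j := h
    subst h
    exact ⟨k, rfl⟩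
  · rintro ⟨k, rfl⟩
    exact ⟨(j, k), rfl, rfl⟩

/-- the fibre over a decomposition. -/
theorem card_fiber {F : Type*} [Field F] [Fintype F] {n a t : ℕ} (hat : n = a * t)
    {D : Fin t → Submodule F (Fin n → F)} (hD : Cfsg.Geo.IsMDecomposition a D) :
    Nat.card {s : Fin t × Fin a → (Fin n → F) // LinearIndependent F s ∧
        blockSpan (F := F) s Prod.fst = D} =
      (∏ j : Fin a, (Fintype.card F ^ a - Fintype.card F ^ (j : ℕ))) ^ t := by
  have h1 : ∀ j : Fin t, Nat.card {u : Fin a → D j // LinearIndependent F u} =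
      ∏ j : Fin a, (Fintype.card F ^ a - Fintype.card F ^ (j : ℕ)) := by
    intro j
    have h := card_linearIndependent (K := F) (V := D j) (k := a) (by rw [hD.finrank_eq])
    rw [hD.finrank_eq] at h
    exact h
  have h2 : Nat.card (∀ j : Fin t, {u : Fin a → D j // LinearIndependent F u}) =
      (∏ j : Fin a, (Fintype.card F ^ a - Fintype.card F ^ (j : ℕ))) ^ t := by
    rw [Nat.card_pi, Finset.prod_congr rfl (fun j _ => h1 j), Finset.prod_const, Finset.card_univ,
      Fintype.card_fin]
  rw [← h2]
  apply Nat.card_congr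
  have hspan : ∀ (u : ∀ j : Fin t, {u : Fin a → D j // LinearIndependent F u}) (j : Fin t),
      Submodule.span F (Set.range fun k => (((u j).1 k : D j) : Fin n → F)) = D j := by
    intro u j
    have h3 : Submodule.span F (Set.range (u j).1) = ⊤ := by
      apply (u j).2.span_eq_top_of_card_eq_finrank'
      rw [Fintype.card_fin, hD.finrank_eq]
    have h4 : (Set.range fun k => (((u j).1 k : D j) : Fin n → F)) =
        (D j).subtype '' (Set.range (u j).1) := by
      rw [← Set.range_comp]
      rfl
    rw [h4, ← Submodule.map_span, h3, Submodule.map_top, Submodule.range_subtype]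
  refine
    { toFun := fun s j => ⟨fun k => ⟨s.1 (j, k), ?_⟩, ?_⟩
      invFun := fun u => ⟨fun jk => (((u jk.1).1 jk.2 : D jk.1) : Fin n → F), ?_, ?_⟩
      left_inv := ?_
      right_inv := ?_ }
  · have h3 := mem_blockSpan (F := F) s.1 Prod.fst (j, k)
    have h4 := congrFun s.2.2 j
    exact h4 ▸ h3
  · have h3 : LinearIndependent F (fun k => s.1 (j, k)) :=
      s.2.1.comp (fun k => (j, k)) (fun k k' h => (Prod.ext_iff.1 h).2)
    exact LinearIndependent.of_comp (D j).subtype h3
  · apply linearIndependent_of_top_le_span_of_card_eq_finrank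
    · rw [← hD.iSup_eq_top]
      refine iSup_le fun j => ?_
      rw [← hspan u j]
      apply Submodule.span_mono
      rintro _ ⟨k, rfl⟩
      exact ⟨(j, k), rfl⟩
    · rw [Module.finrank_fin_fun, Fintype.card_prod, Fintype.card_fin, Fintype.card_fin, hat,
        mul_comm]
  · funext j
    rw [blockSpan_fst_eq]
    exact hspan u j
  · intro s
    rfl
  · intro u
    rfl

/-- ordered bases of `V` indexed by `Fin t × Fin a` ↔ (decomposition `D`, an ordered basis of each `D j`);
`card_linearIndependent` (Mathlib.LinearAlgebra.Matrix.GeneralLinearGroup.Card). -/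
theorem card_decomp_mul {F : Type*} [Field F] [Fintype F] {n a t : ℕ} (hat : n = a * t) (ha : 1 ≤ a)
    (ht : 2 ≤ t) :
    Nat.card {D : Fin t → Submodule F (Fin n → F) // Cfsg.Geo.IsMDecomposition a D} *
      (∏ j : Fin a, (Fintype.card F ^ a - Fintype.card F ^ (j : ℕ))) ^ t =
      ∏ j : Fin n, (Fintype.card F ^ n - Fintype.card F ^ (j : ℕ)) := by
  classical
  rw [← card_fam hat]
  let Φ : {s : Fin t × Fin a → (Fin n → F) // LinearIndependent F s} →
      {D : Fin t → Submodule F (Fin n → F) // Cfsg.Geo.IsMDecomposition a D} :=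
    fun s => ⟨blockSpan (F := F) s.1 Prod.fst, decomp_of_fam hat ha ht s.2⟩
  have : Finite (Submodule F (Fin n → F)) :=
    Finite.of_injective (fun W : Submodule F (Fin n → F) => (W : Set (Fin n → F)))
      SetLike.coe_injective
  have : Fintype {D : Fin t → Submodule F (Fin n → F) // Cfsg.Geo.IsMDecomposition a D} :=
    Fintype.ofFinite _
  rw [← Nat.card_congr (Equiv.sigmaFiberEquiv Φ), Nat.card_sigma]
  have h1 : ∀ D : {D : Fin t → Submodule F (Fin n → F) // Cfsg.Geo.IsMDecomposition a D},
      Nat.card {s // Φ s = D} =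
        (∏ j : Fin a, (Fintype.card F ^ a - Fintype.card F ^ (j : ℕ))) ^ t := by
    intro D
    rw [← card_fiber hat D.2]
    apply Nat.card_congr
    exact
      { toFun := fun s => ⟨s.1.1, s.1.2, congrArg Subtype.val s.2⟩
        invFun := fun s => ⟨⟨s.1, s.2.1⟩, Subtype.ext s.2.2⟩
        left_inv := fun s => rfl
        right_inv := fun s => rfl }
  rw [Finset.sum_congr rfl (fun D _ => h1 D), Finset.sum_const, Finset.card_univ, smul_eq_mul,
    Nat.card_eq_fintype_card]

end Cfsg.Agent.Lib.Helper25.Dec
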