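import Cfsg.Agent.Lib.Helper25.Dec.Defs

/-! Ladder DEC, rung SIG. -/

set_option autoImplicit false

namespace Cfsg.Agent.Lib.Helper25.Dec

open Module Cfsg.Agent.Lib.Helper25.Elu

variable {F : Type*} [Field F] {n : ℕ}

theorem decomp_injective {a t : ℕ} {D : Fin t → Submodule F (Fin n → F)}
    (hD : Cfsg.Geo.IsMDecomposition a D) : Function.Injective D := by
  apply hD.indep.injective
  intro i h
  have := hD.finrank_eq i
  rw [h, finrank_bot] at this
  have := hD.pos
  omega

/-- induction on `s` (cf. `Cfsg.Agent.Lib.Helper48.map_pow_decomp`). -/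
theorem map_pow_eq {t : ℕ} {D : Fin t → Submodule F (Fin n → F)} (T : End F (Fin n → F))
    (σ : Equiv.Perm (Fin t)) (hσ : ∀ j, (D j).map T = D (σ j)) (s : ℕ) (j : Fin t) :
    (D j).map (T ^ s) = D ((σ ^ s) j) := by
  induction s with
  | zero =>
    rw [pow_zero, pow_zero, Equiv.Perm.one_apply]
    exact Submodule.map_id _
  | succ s ih =>
    rw [pow_succ', pow_succ', Module.End.mul_eq_comp, Submodule.map_comp, ih, hσ,
      Equiv.Perm.mul_apply]

theorem sigma_pow_eq_one {a t : ℕ} {D : Fin t → Submodule F (Fin n → F)}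
    (hD : Cfsg.Geo.IsMDecomposition a D) (T : End F (Fin n → F))
    (σ : Equiv.Perm (Fin t)) (hσ : ∀ j, (D j).map T = D (σ j)) {r : ℕ} (hT : T ^ r = 1) :
    σ ^ r = 1 := by
  ext j
  have h := map_pow_eq T σ hσ r j
  rw [hT] at h
  have h2 : (D j).map (1 : End F (Fin n → F)) = D j := Submodule.map_id _
  rw [h2] at h
  rw [← decomp_injective hD h, Equiv.Perm.one_apply]

/-- `σ^r = 1`, `r` prime, `σ j ≠ j`: the points `σ^s j`, `s < r`, are distinct. -/
theorem pow_apply_injOn {t : ℕ} (σ : Equiv.Perm (Fin t)) {r : ℕ} (hr : r.Prime) (hσ : σ ^ r = 1)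
    {j : Fin t} (hj : σ j ≠ j) {s s' : ℕ} (hs : s < r) (hs' : s' < r) (h : (σ ^ s) j = (σ ^ s') j) :
    s = s' := by
  have key : ∀ d, 0 < d → d < r → (σ ^ d) j = j → False := by
    intro d hd0 hdr hd
    have h1 : Function.IsPeriodicPt σ d j := by
      rw [Function.IsPeriodicPt, Function.IsFixedPt, Equiv.Perm.iterate_eq_pow]; exact hd
    have h2 : Function.IsPeriodicPt σ r j := by
      rw [Function.IsPeriodicPt, Function.IsFixedPt, Equiv.Perm.iterate_eq_pow, hσ]; rfl
    have h3 := h1.gcd h2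
    have hcop : Nat.Coprime d r := by
      rw [Nat.coprime_comm]
      exact (Nat.Prime.coprime_iff_not_dvd hr).2 (fun hdvd => by
        have := Nat.le_of_dvd hd0 hdvd
        omega)
    rw [hcop.gcd_eq_one] at h3
    exact hj h3
  have aux : ∀ u v : ℕ, u < v → v < r → (σ ^ u) j = (σ ^ v) j → False := by
    intro u v huv hv huv'
    apply key (v - u) (by omega) (by omega)
    have : σ ^ v = σ ^ u * σ ^ (v - u) := by rw [← pow_add]; congr 1; omega
    rw [this, Equiv.Perm.mul_apply] at huv'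
    exact ((σ ^ u).injective huv').symm
  rcases Nat.lt_trichotomy s s' with h1 | h1 | h1
  · exact (aux s s' h1 hs' h).elim
  · exact h1
  · exact (aux s' s h1 hs h.symm).elim

end Cfsg.Agent.Lib.Helper25.Dec
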