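import Cfsg.Agent.Lib.Helper25.Dec.Defs
import Cfsg.Agent.Lib.Helper25.Dec.SIG

/-! Ladder DEC, rung FREE. -/

set_option autoImplicit false

namespace Cfsg.Agent.Lib.Helper25.Dec

open Module Cfsg.Agent.Lib.Helper25.Elu

theorem decomp_comp {F : Type*} [Field F] {n a t : ℕ} {D : Fin t → Submodule F (Fin n → F)}
    (hD : Cfsg.Geo.IsMDecomposition a D) (π : Equiv.Perm (Fin t)) :
    Cfsg.Geo.IsMDecomposition a (D ∘ π) where
  two_le := hD.two_le
  pos := hD.pos
  finrank_eq := fun i => hD.finrank_eq (π i)
  indep := hD.indep.comp π.injective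
  iSup_eq_top := by
    rw [← hD.iSup_eq_top]
    exact π.surjective.iSup_comp D

/-- a finite type with a free action of a finite group `G` (given as a family of maps) has cardinality
divisible by `|G|`. -/
theorem card_dvd_of_free {G X : Type*} [Group G] [Finite G] [Finite X] [MulAction G X]
    (hfree : ∀ (g : G) (x : X), g • x = x → g = 1) : Nat.card G ∣ Nat.card X := by
  classical
  have e := MulAction.selfEquivSigmaOrbits G X
  have h1 : ∀ ω : Quotient (MulAction.orbitRel G X), Nat.card (MulAction.orbit G ω.out) = Nat.card G := by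
    intro ω
    have h2 := Nat.card_congr (MulAction.orbitProdStabilizerEquivGroup G ω.out)
    rw [Nat.card_prod] at h2
    have h3 : MulAction.stabilizer G ω.out = ⊥ := by
      rw [eq_bot_iff]
      intro g hg
      rw [Subgroup.mem_bot]
      exact hfree g _ hg
    rw [h3, Subgroup.card_bot, mul_one] at h2
    exact h2
  have : Fintype (MulAction.orbitRel.Quotient G X) := Fintype.ofFinite _
  rw [Nat.card_congr e, Nat.card_sigma]
  apply Finset.dvd_sum
  intro ω _
  rw [h1]

/-- `Equiv.Perm (Fin t)` acts freely on the ordered decompositions (`D ∘ π = D → π = 1` as `D` is injective). -/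
theorem factorial_dvd_card {F : Type*} [Field F] [Finite F] {n a t : ℕ} :
    t.factorial ∣ Nat.card {D : Fin t → Submodule F (Fin n → F) // Cfsg.Geo.IsMDecomposition a D} := by
  classical
  let _ : MulAction (Equiv.Perm (Fin t))
      {D : Fin t → Submodule F (Fin n → F) // Cfsg.Geo.IsMDecomposition a D} :=
    { smul := fun π D => ⟨D.1 ∘ (π⁻¹ : Equiv.Perm (Fin t)), decomp_comp D.2 _⟩
      one_smul := fun D => by
        apply Subtype.ext
        funext i
        rfl
      mul_smul := fun π ρ D => by
        apply Subtype.ext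
        funext i
        show D.1 ((π * ρ)⁻¹ i) = D.1 (ρ⁻¹ (π⁻¹ i))
        rw [mul_inv_rev, Equiv.Perm.mul_apply] }
  have : Finite (Submodule F (Fin n → F)) := by
    have : Finite (Set (Fin n → F)) := inferInstance
    exact Finite.of_injective (fun W : Submodule F (Fin n → F) => (W : Set (Fin n → F)))
      SetLike.coe_injective
  have h := card_dvd_of_free (G := Equiv.Perm (Fin t))
    (X := {D : Fin t → Submodule F (Fin n → F) // Cfsg.Geo.IsMDecomposition a D}) (by
      intro π D h
      have h1 : ∀ i, D.1 (π⁻¹ i) = D.1 i := fun i => congrFun (congrArg Subtype.val h) i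
      have h2 : π⁻¹ = 1 := by
        ext i
        rw [decomp_injective D.2 (h1 i), Equiv.Perm.one_apply]
      exact inv_eq_one.1 h2)
  rwa [Nat.card_eq_fintype_card, Fintype.card_perm, Fintype.card_fin] at h

end Cfsg.Agent.Lib.Helper25.Dec
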