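import Cfsg.Agent.Lib.Helper25.Dec.Defs
import Cfsg.Agent.Lib.Helper25.Dec.CNTD
import Cfsg.Agent.Lib.Helper25.Dec.FREE
import Cfsg.Agent.Lib.Helper25.Elu.ORD

/-! Ladder DEC, rung COUNT. -/

set_option autoImplicit false

namespace Cfsg.Agent.Lib.Helper25.Dec

open Module Cfsg.Agent.Lib.Helper25.Elu

/-- `N / t! ∣ N ∣ ∏_{j<n} (q^n - q^j)`, so `r ∣ q^j (q^(n-j) - 1)` for some `j < n`: `ordq ∣ n - j`, `0 < n - j ≤ n`. -/
theorem ordq_le_of_dvd {F : Type*} [Field F] [Fintype F] {p : ℕ} [Fact p.Prime] [CharP F p] {r : ℕ}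
    [Fact r.Prime] (hrp : r ≠ p) {n a t : ℕ} (hat : n = a * t) (ha : 1 ≤ a) (ht : 2 ≤ t)
    (h : r ∣ Nat.card {D : Fin t → Submodule F (Fin n → F) // Cfsg.Geo.IsMDecomposition a D} /
      t.factorial) : ordq F r ≤ n := by
  have hr : r.Prime := Fact.out
  have h1 : r ∣ Nat.card {D : Fin t → Submodule F (Fin n → F) // Cfsg.Geo.IsMDecomposition a D} :=
    h.trans (Nat.div_dvd_of_dvd factorial_dvd_card)
  have h2 : r ∣ ∏ j : Fin n, (Fintype.card F ^ n - Fintype.card F ^ (j : ℕ)) := by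
    rw [← card_decomp_mul hat ha ht]
    exact Dvd.dvd.mul_right h1 _
  obtain ⟨j, -, hj⟩ := (Prime.dvd_finsetProd_iff hr.prime _).1 h2
  have hjn : (j : ℕ) < n := j.2
  have h3 : Fintype.card F ^ n - Fintype.card F ^ (j : ℕ) =
      Fintype.card F ^ (j : ℕ) * (Fintype.card F ^ (n - (j : ℕ)) - 1) := by
    rw [Nat.mul_sub, mul_one, ← pow_add]
    congr 2
    omega
  rw [h3] at hj
  rcases (Nat.Prime.dvd_mul hr).1 hj with h4 | h4
  · exact absurd (hr.dvd_of_dvd_pow h4) (not_dvd_card hrp)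
  · have h5 := (dvd_pow_sub_one_iff hrp _).1 h4
    have := Nat.le_of_dvd (by omega) h5
    omega

end Cfsg.Agent.Lib.Helper25.Dec
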