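import Mathlib
import Cfsg.Prelude.Def_GeometricClasses
import Cfsg.Agent.Lib.Helper25.Elu.Defs

/-! Ladder DEC (S5958): definitions. -/

set_option autoImplicit false

namespace Cfsg.Agent.Lib.Helper25.Dec

open Module

/-- `T` permutes the summands of a decomposition of `F^n` into `t` subspaces of dimension `a`. -/
def Stab {F : Type*} [Field F] {n : ℕ} (T : End F (Fin n → F)) (a t : ℕ) : Prop :=
  ∃ D : Fin t → Submodule F (Fin n → F), Cfsg.Geo.IsMDecomposition a D ∧
    ∃ σ : Equiv.Perm (Fin t), ∀ j, (D j).map T = D (σ j)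

end Cfsg.Agent.Lib.Helper25.Dec
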