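import Cfsg.Agent.Lib.Helper25.Dec.Defs
import Cfsg.Agent.Lib.Helper25.Dec.SIG

/-! Ladder DEC, rung ORB. -/

set_option autoImplicit false

namespace Cfsg.Agent.Lib.Helper25.Dec

open Module Cfsg.Agent.Lib.Helper25.Elu

variable {F : Type*} [Field F] {n : ℕ}

theorem eq_one_of_pow_prime_eq_one [Fintype F] {r : ℕ} (hr : r.Prime)
    (hr1 : ¬ r ∣ Fintype.card F - 1) {z : F} (hz : z ^ r = 1) : z = 1 := by
  have hz0 : z ≠ 0 := by
    intro h
    rw [h, zero_pow hr.ne_zero] at hz
    exact zero_ne_one hz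
  have h2 : z ^ (Fintype.card F - 1) = 1 := FiniteField.pow_card_sub_one_eq_one z hz0
  have hcop : Nat.Coprime r (Fintype.card F - 1) := (Nat.Prime.coprime_iff_not_dvd hr).2 hr1
  have := pow_gcd_eq_one.2 ⟨hz, h2⟩
  rwa [hcop.gcd_eq_one, pow_one] at this

/-- `D j = span {v j}`, `T (v j) = λ_j v (σ j)`. `N = ∑_{s<r} T^s` maps into `C = ker (T - 1)`. `N (v j) ≠ 0`: if `σ j = j` then
`λ_j^r = 1` so `λ_j = 1` (`r ∤ q - 1`) and `N (v j) = r v j`; if `σ j ≠ j` the `v j`-coordinate of `N (v j)` is `1`.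
`N (v j)` is supported on the `σ`-orbit of `j`; so for a set of orbit representatives the `N (v j)` are independent:
`#orbits ≤ dim C`; every orbit has at most `r` points: `t ≤ r * #orbits`. -/
theorem le_mul_fix [Fintype F] {t : ℕ} {D : Fin t → Submodule F (Fin n → F)}
    (hD : Cfsg.Geo.IsMDecomposition 1 D) (T : End F (Fin n → F))
    (σ : Equiv.Perm (Fin t)) (hσ : ∀ j, (D j).map T = D (σ j)) {r : ℕ} (hr : r.Prime)
    (hrF : (r : F) ≠ 0) (hr1 : ¬ r ∣ Fintype.card F - 1) (hT : T ^ r = 1) :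
    t ≤ r * finrank F (LinearMap.ker (T - 1)) := by
  classical
  have hσr := sigma_pow_eq_one hD T σ hσ hT
  have hex : ∀ j, ∃ v : Fin n → F, v ∈ D j ∧ v ≠ 0 ∧ ∀ w ∈ D j, ∃ c : F, w = c • v := by
    intro j
    obtain ⟨v, hv, hw⟩ := finrank_eq_one_iff'.1 (hD.finrank_eq j)
    refine ⟨v, v.2, fun h => hv (Subtype.ext h), fun w hw' => ?_⟩
    obtain ⟨c, hc⟩ := hw ⟨w, hw'⟩
    exact ⟨c, (congrArg Subtype.val hc).symm⟩
  choose v hvD hv0 hvs using hex
  have hli : LinearIndependent F v := hD.indep.linearIndependent D hvD hv0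
  have hsp : ⊤ ≤ Submodule.span F (Set.range v) := by
    rw [← hD.iSup_eq_top]
    refine iSup_le fun j w hw => ?_
    obtain ⟨c, rfl⟩ := hvs j w hw
    exact Submodule.smul_mem _ _ (Submodule.subset_span ⟨j, rfl⟩)
  obtain ⟨b, hb⟩ : ∃ b : Basis (Fin t) F (Fin n → F), ∀ j, b j = v j :=
    ⟨Basis.mk hli hsp, fun j => Basis.mk_apply hli hsp j⟩
  have hself : ∀ i, b.coord i (v i) = 1 := by
    intro i
    rw [← hb, Basis.coord_apply, Basis.repr_self, Finsupp.single_eq_same]
  have hcoord : ∀ i k, k ≠ i → ∀ w ∈ D k, b.coord i w = 0 := by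
    intro i k hki w hw
    obtain ⟨c, rfl⟩ := hvs k w hw
    rw [map_smul, ← hb, Basis.coord_apply, Basis.repr_self, Finsupp.single_apply, if_neg hki,
      smul_zero]
  have hTs : ∀ s j, (T ^ s) (v j) ∈ D ((σ ^ s) j) := by
    intro s j
    rw [← map_pow_eq T σ hσ s j]
    exact Submodule.mem_map_of_mem (hvD j)
  obtain ⟨N, hNdef⟩ : ∃ N : End F (Fin n → F), N = ∑ s ∈ Finset.range r, T ^ s := ⟨_, rfl⟩
  have hNapp : ∀ w, N w = ∑ s ∈ Finset.range r, (T ^ s) w := by
    intro w
    rw [hNdef, LinearMap.sum_apply]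
  have hN : ∀ w, N w ∈ LinearMap.ker (T - 1) := by
    intro w
    rw [LinearMap.mem_ker]
    have h1 : (T - 1) * N = 0 := by
      rw [hNdef, mul_geom_sum, hT, sub_self]
    exact congrArg (fun f : End F (Fin n → F) => f w) h1
  have hdiag : ∀ i, b.coord i (N (v i)) ≠ 0 := by
    intro i
    by_cases hi : σ i = i
    · obtain ⟨c, hc⟩ := hvs i (T (v i)) (by
        have := hTs 1 i
        rwa [pow_one, pow_one, hi] at this)
      have hpow : ∀ s, (T ^ s) (v i) = c ^ s • v i := by
        intro s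
        induction s with
        | zero => simp
        | succ s ih =>
          rw [pow_succ', Module.End.mul_apply, ih, map_smul, hc, smul_smul, pow_succ]
      have hc1 : c ^ r = 1 := by
        have h3 := hpow r
        rw [hT, Module.End.one_apply] at h3
        have h4 : c ^ r • v i = (1 : F) • v i := by rw [← h3, one_smul]
        exact smul_left_injective F (hv0 i) h4
      have hc' : c = 1 := eq_one_of_pow_prime_eq_one hr hr1 hc1
      have h5 : N (v i) = (r : F) • v i := by
        rw [hNapp]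
        simp only [hpow, hc', one_pow, one_smul, Finset.sum_const, Finset.card_range]
        rw [Nat.cast_smul_eq_nsmul]
      rw [h5, map_smul, hself, smul_eq_mul, mul_one]
      exact hrF
    · have h5 : b.coord i (N (v i)) = 1 := by
        rw [hNapp, map_sum, Finset.sum_eq_single 0]
        · rw [pow_zero, Module.End.one_apply, hself]
        · intro s hs hs0
          apply hcoord i ((σ ^ s) i) _ _ (hTs s i)
          intro h
          exact hs0 (pow_apply_injOn σ hr hσr hi (Finset.mem_range.1 hs) hr.pos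
            (by rw [h, pow_zero]; rfl))
        · intro h
          exact absurd (Finset.mem_range.2 hr.pos) h
      rw [h5]
      exact one_ne_zero
  have hback : ∀ s j, (σ ^ ((r - 1) * s)) ((σ ^ s) j) = j := by
    intro s j
    rw [← Equiv.Perm.mul_apply, ← pow_add]
    have h1 : (r - 1) * s + s = r * s := by
      obtain ⟨r', rfl⟩ : ∃ r', r = r' + 1 := ⟨r - 1, by have := hr.pos; omega⟩
      simp only [Nat.add_sub_cancel]
      ring
    rw [h1, pow_mul, hσr, one_pow]
    rfl
  obtain ⟨R, hR⟩ : ∃ R : Finset (Fin t), ∀ j, j ∈ R ↔ ∀ s : ℕ, j ≤ (σ ^ s) j :=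
    ⟨Finset.univ.filter (fun j => ∀ s : ℕ, j ≤ (σ ^ s) j), fun j => by simp⟩
  have hoff : ∀ i ∈ R, ∀ j ∈ R, j ≠ i → b.coord i (N (v j)) = 0 := by
    intro i hi j hj hji
    rw [hNapp, map_sum]
    apply Finset.sum_eq_zero
    intro s _
    apply hcoord i _ _ _ (hTs s j)
    intro h
    apply hji
    apply le_antisymm
    · have := (hR j).1 hj s
      rwa [h] at this
    · have h7 := (hR i).1 hi ((r - 1) * s)
      have h8 : (σ ^ ((r - 1) * s)) i = j := by rw [← h, hback]
      rwa [h8] at h7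
  have hliR : LinearIndependent F (fun j : R => N (v j)) := by
    rw [linearIndependent_iff']
    intro S c hc i hi
    have h1 := congrArg (b.coord i) hc
    rw [map_sum, map_zero, Finset.sum_eq_single i] at h1
    · rw [map_smul, smul_eq_mul] at h1
      exact (mul_eq_zero.1 h1).resolve_right (hdiag i)
    · intro j _ hji
      rw [map_smul, hoff i i.2 j j.2 (fun h => hji (Subtype.ext h)), smul_zero]
    · intro h
      exact absurd hi h
  have hcard : R.card ≤ finrank F (LinearMap.ker (T - 1)) := by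
    have h1 : LinearIndependent F
        (fun j : R => (⟨N (v j), hN _⟩ : LinearMap.ker (T - 1))) := by
      apply LinearIndependent.of_comp (LinearMap.ker (T - 1)).subtype
      exact hliR
    have := h1.fintype_card_le_finrank
    simpa using this
  have hsurj : Function.Surjective (fun x : Fin r × R => (σ ^ (x.1 : ℕ)) x.2) := by
    intro i
    obtain ⟨j, hj, hmin⟩ := Finset.exists_min_image
      (Finset.univ.filter (fun k => ∃ s : ℕ, (σ ^ s) i = k)) id
      ⟨i, Finset.mem_filter.2 ⟨Finset.mem_univ _, 0, rfl⟩⟩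
    obtain ⟨s0, hs0⟩ := (Finset.mem_filter.1 hj).2
    have hjR : j ∈ R := by
      rw [hR]
      intro s
      apply hmin
      rw [Finset.mem_filter]
      refine ⟨Finset.mem_univ _, s + s0, ?_⟩
      rw [pow_add, Equiv.Perm.mul_apply, hs0]
    refine ⟨(⟨((r - 1) * s0) % r, Nat.mod_lt _ hr.pos⟩, ⟨j, hjR⟩), ?_⟩
    show (σ ^ (((r - 1) * s0) % r)) j = i
    rw [← pow_eq_pow_mod _ hσr, ← hs0, hback]
  have h6 := Fintype.card_le_of_surjective _ hsurj
  rw [Fintype.card_fin, Fintype.card_prod, Fintype.card_fin, Fintype.card_coe] at h6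
  exact h6.trans (Nat.mul_le_mul_left _ hcard)

end Cfsg.Agent.Lib.Helper25.Dec
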