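import Cfsg.Agent.Lib.Helper25.Dec.Defs

/-! Ladder DEC, rung SCALE. -/

set_option autoImplicit false

namespace Cfsg.Agent.Lib.Helper25.Dec

open Module Cfsg.Agent.Lib.Helper25.Elu

variable {F : Type*} [Field F] {n : ℕ}

theorem Stab.smul {T : End F (Fin n → F)} {a t : ℕ} (h : Stab T a t) {b : F} (hb : b ≠ 0) :
    Stab (b • T) a t := by
  obtain ⟨D, hD, σ, hσ⟩ := h
  refine ⟨D, hD, σ, fun j => ?_⟩
  rw [← hσ j]
  ext v
  simp only [Submodule.mem_map, LinearMap.smul_apply]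
  constructor
  · rintro ⟨w, hw, rfl⟩
    exact ⟨b • w, (D j).smul_mem b hw, by rw [map_smul]⟩
  · rintro ⟨w, hw, rfl⟩
    exact ⟨b⁻¹ • w, (D j).smul_mem _ hw, by rw [map_smul, smul_smul, mul_inv_cancel₀ hb, one_smul]⟩

end Cfsg.Agent.Lib.Helper25.Dec
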