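import Cfsg.Agent.Lib.Helper25.Dec.Defs
import Cfsg.Agent.Lib.Helper99.BlockElt
import Cfsg.Agent.Lib.Helper25.Elu.ORD

/-! Ladder DEC, rung SINGLE. -/

set_option autoImplicit false

namespace Cfsg.Agent.Lib.Helper25.Dec

open Module Cfsg.Agent.Lib.Helper25.Elu

/-- `Cfsg.Agent.Lib.Helper99.exists_order_r_fixed_codim` (Lib/Helper99/BlockElt.lean) with `n = c + (n - c)`. -/
theorem exists_single {F : Type*} [Field F] [Fintype F] {p : ℕ} [Fact p.Prime] [CharP F p] {r : ℕ}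
    [Fact r.Prime] (hrp : r ≠ p) (h2 : 2 ≤ ordq F r) {n : ℕ} (hn : ordq F r ≤ n) :
    ∃ T : End F (Fin n → F), LinearMap.det T = 1 ∧ T ^ r = 1 ∧ T ≠ 1 ∧
      finrank F (LinearMap.ker (T - 1)) = n - ordq F r := by
  obtain ⟨k, rfl⟩ : ∃ k, n = ordq F r + k := ⟨n - ordq F r, by omega⟩
  obtain ⟨x, hx, hx1, hfix⟩ := Cfsg.Agent.Lib.Helper99.exists_order_r_fixed_codim (F := F) (r := r)
    (not_dvd_card hrp) (ordq F r) k rfl h2
  refine ⟨Matrix.toLin' (x : Matrix (Fin (ordq F r + k)) (Fin (ordq F r + k)) F), ?_, ?_, ?_, ?_⟩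
  · rw [LinearMap.det_toLin']; exact x.2
  · rw [← Matrix.toLin'_pow, ← Matrix.SpecialLinearGroup.coe_pow, hx,
      Matrix.SpecialLinearGroup.coe_one, Matrix.toLin'_one]
    rfl
  · intro h
    apply hx1
    apply Subtype.ext
    apply Matrix.toLin'.injective
    rw [h, Matrix.SpecialLinearGroup.coe_one, Matrix.toLin'_one]
    rfl
  · rw [hfix]; omega

end Cfsg.Agent.Lib.Helper25.Dec
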