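import Cfsg.Agent.Lib.Helper25.Dec.Defs

/-! Ladder DEC, rung SUMLE. -/

set_option autoImplicit false

namespace Cfsg.Agent.Lib.Helper25.Dec

open Module Cfsg.Agent.Lib.Helper25.Elu

variable {F : Type*} [Field F] {n : ℕ}

theorem sum_finrank_eq {ι : Type*} [DecidableEq ι] {E : ι → Submodule F (Fin n → F)}
    (hE : iSupIndep E) (s : Finset ι) :
    ∑ j ∈ s, finrank F (E j) = finrank F ↥(⨆ j ∈ s, E j) := by
  induction s using Finset.induction_on with
  | empty =>
    have : (⨆ j ∈ (∅ : Finset ι), E j) = ⊥ := by simp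
    rw [this, finrank_bot, Finset.sum_empty]
  | insert i s hi ih =>
    rw [Finset.sum_insert hi, ih, Finset.iSup_insert]
    have hd : Disjoint (E i) (⨆ j ∈ (s : Set ι), E j) := hE.disjoint_biSup (by simpa using hi)
    have h1 := Submodule.finrank_sup_add_finrank_inf_eq (E i) (⨆ j ∈ s, E j)
    have h2 : E i ⊓ (⨆ j ∈ s, E j) = ⊥ := by
      have := hd.eq_bot
      simpa using this
    rw [h2, finrank_bot] at h1
    omega

/-- the `D j ⊓ C` are independent subspaces of `C` (e.g. induction over finsets with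
`Submodule.finrank_sup_add_finrank_inf_eq`, or `iSupIndep` + `DirectSum`). -/
theorem sum_finrank_inf_le {t : ℕ} {D : Fin t → Submodule F (Fin n → F)} (hD : iSupIndep D)
    (C : Submodule F (Fin n → F)) : ∑ j, finrank F ↥(D j ⊓ C) ≤ finrank F C := by
  have hE : iSupIndep (fun j => D j ⊓ C) := hD.mono (fun j => inf_le_left)
  rw [sum_finrank_eq hE Finset.univ]
  apply Submodule.finrank_mono
  exact iSup₂_le fun j _ => inf_le_right

end Cfsg.Agent.Lib.Helper25.Dec
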