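import Cfsg.Agent.Lib.Helper25.Dec.Defs
import Cfsg.Agent.Lib.Helper25.Dec.BW1A
import Cfsg.Agent.Lib.Helper25.Dec.BW1B
import Cfsg.Agent.Lib.Helper25.Dec.BW2
import Cfsg.Agent.Lib.Helper25.Dec.BWB
import Cfsg.Agent.Lib.Helper25.Dec.SCALE
import Cfsg.Agent.Lib.Helper25.Dec.SIGONE
import Cfsg.Agent.Lib.Helper25.Dec.SUMLE
import Cfsg.Agent.Lib.Helper25.Dec.ORBIT
import Cfsg.Agent.Lib.Helper25.Dec.ORB
import Cfsg.Agent.Lib.Helper25.Dec.SINGLE
import Cfsg.Agent.Lib.Helper25.Dec.COUNT
import Cfsg.Agent.Lib.Helper25.Elu.EXI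
import Cfsg.Agent.Lib.Helper25.Elu.DET1
import Cfsg.Agent.Lib.Helper25.Elu.SPLIT
import Cfsg.Agent.Lib.Helper25.Elu.DIVI

/-! Ladder DEC: the main theorem in terms of endomorphisms. -/

set_option autoImplicit false

namespace Cfsg.Agent.Lib.Helper25.Dec

open Module Cfsg.Agent.Lib.Helper25.Elu

variable {F : Type*} [Field F] [Fintype F] {p : ℕ} [Fact p.Prime] [CharP F p] {r : ℕ} [Fact r.Prime]
  {n : ℕ}

theorem inv_dim (hrp : r ≠ p) (T : End F (Fin n → F)) (hT : T ^ r = 1)
    (W : Submodule F (Fin n → F)) (hW : IsInv T W) :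
    ∃ b, finrank F W = finrank F ↥(W ⊓ LinearMap.ker (T - 1)) + ordq F r * b := by
  have hrF : (r : F) ≠ 0 := natCast_ne_zero hrp
  obtain ⟨D, hD, hCD, hsplit⟩ := exists_split T hrF hT
  have hdvd : ordq F r ∣ finrank F ↥(W ⊓ D) := by
    apply ordq_dvd_finrank T hrp hT (W ⊓ D) (hW.inf hD)
    intro w hw hTw
    have h1 : w ∈ LinearMap.ker (T - 1) := by
      rw [LinearMap.mem_ker, LinearMap.sub_apply, Module.End.one_apply, hTw, sub_self]
    exact (Submodule.disjoint_def.1 hCD.disjoint) w h1 hw.2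
  obtain ⟨b, hb⟩ := hdvd
  exact ⟨b, by rw [hsplit W hW, hb]⟩

theorem eq_one_of_pow_eq_one (hr1 : ¬ r ∣ Fintype.card F - 1) {z : F} (hz : z ^ r = 1) : z = 1 := by
  have hr : r.Prime := Fact.out
  have hz0 : z ≠ 0 := by
    intro h
    rw [h, zero_pow hr.ne_zero] at hz
    exact zero_ne_one hz
  have h2 : z ^ (Fintype.card F - 1) = 1 := FiniteField.pow_card_sub_one_eq_one z hz0
  have hcop : Nat.Coprime r (Fintype.card F - 1) := (Nat.Prime.coprime_iff_not_dvd hr).2 hr1
  have := pow_gcd_eq_one.2 ⟨hz, h2⟩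
  rwa [hcop.gcd_eq_one, pow_one] at this

theorem not_scalar_of_ne_one (hr1 : ¬ r ∣ Fintype.card F - 1) (hn : 0 < n) (T : End F (Fin n → F))
    (hT : T ^ r = 1) (hT1 : T ≠ 1) (z : F) : T ≠ z • 1 := by
  intro h
  apply hT1
  have hfr : finrank F (Fin n → F) = n := by simp
  have : Nontrivial (Fin n → F) := by
    apply Module.nontrivial_of_finrank_pos (R := F)
    rw [hfr]; exact hn
  obtain ⟨v, hv⟩ := exists_ne (0 : Fin n → F)
  rw [h, _root_.smul_pow, one_pow] at hT
  have h2 := congrArg (fun f : End F (Fin n → F) => f v) hT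
  simp only [LinearMap.smul_apply, Module.End.one_apply] at h2
  have h3 : z ^ r = 1 := by
    have h4 : z ^ r • v = (1 : F) • v := by rw [h2, one_smul]
    exact smul_left_injective F hv h4
  rw [h, eq_one_of_pow_eq_one hr1 h3, one_smul]

theorem ordq_dvd_pred (hrp : r ≠ p) : ordq F r ∣ r - 1 := by
  unfold ordq
  apply orderOf_dvd_of_pow_eq_one
  apply ZMod.pow_card_sub_one_eq_one
  intro h
  rw [ZMod.natCast_eq_zero_iff] at h
  exact not_dvd_card hrp h

theorem isInv_of_map_eq {T : End F (Fin n → F)} {W : Submodule F (Fin n → F)} (h : W.map T = W) :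
    IsInv T W := isInv_iff_map_le.2 h.le

/-- the backward direction -/
theorem bw (hrp : r ≠ p) {a t : ℕ} (hat : n = a * t) (ha : 1 ≤ a) (ht : 2 ≤ t)
    (hR : (a = 1 ∧ 1 < ordq F r ∧ ordq F r = r - 1 ∧ n ≤ (n % ordq F r) * r) ∨
      (ordq F r ≤ a ∧ n % ordq F r = t * (a % ordq F r)))
    (T : End F (Fin n → F)) (hdet : LinearMap.det T = 1) {z : F} (hT : T ^ r = z • 1) :
    Stab T a t := by
  have hr : r.Prime := Fact.out
  have hrF : (r : F) ≠ 0 := natCast_ne_zero hrp
  have hn : 0 < n := by rw [hat]; positivity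
  have hfr : finrank F (Fin n → F) = n := by simp
  have hz0 : z ≠ 0 := by
    intro h
    have h1 : LinearMap.det (T ^ r) = 1 := by rw [map_pow, hdet, one_pow]
    rw [hT, h, zero_smul, LinearMap.det_zero, hfr, zero_pow hn.ne'] at h1
    exact zero_ne_one h1
  have hi := ordq_pos (F := F) hrp
  rcases Nat.lt_or_ge (ordq F r) 2 with h1 | h2
  · have h1 : ordq F r = 1 := by omega
    have hr1 : r ∣ Fintype.card F - 1 := (ordq_eq_one_iff hrp).1 h1
    by_cases hpow : ∃ b : F, b ^ r = z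
    · obtain ⟨b, rfl⟩ := hpow
      have hb : b ≠ 0 := by
        intro h
        exact hz0 (by rw [h, zero_pow hr.ne_zero])
      exact stab_of_pow_eq_pow T hrF hr1 hb hT ha ht hat
    · push Not at hpow
      exact stab_of_not_pow T hr hrF hpow hT ha ht hat
  · have hr1 : ¬ r ∣ Fintype.card F - 1 := by
      intro h
      have := (ordq_eq_one_iff hrp).2 h
      omega
    obtain ⟨b, rfl⟩ := exists_pow_eq_of_not_dvd hr hr1 z
    have hb : b ≠ 0 := by
      intro h
      exact hz0 (by rw [h, zero_pow hr.ne_zero])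
    have hy : (b⁻¹ • T) ^ r = 1 := by
      rw [_root_.smul_pow, hT, smul_smul, ← mul_pow, inv_mul_cancel₀ hb, one_pow, one_smul]
    have key : Stab (b⁻¹ • T) a t := by
      rcases hR with ⟨ha1, hc1, hc, hle⟩ | ⟨hca, hmod⟩
      · subst ha1
        have htn : t = n := by omega
        subst htn
        exact stab_one_of_pow_eq_one hrp _ hy ht hc1 hc hle
      · exact stab_of_pow_eq_one hrp _ hy ha ht hat hca hmod
    have := key.smul hb
    rwa [smul_smul, mul_inv_cancel₀ hb, one_smul] at this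

/-- the forward direction -/
theorem fw (hrp : r ≠ p) {a t : ℕ} (hat : n = a * t) (ha : 1 ≤ a) (ht : 2 ≤ t)
    (hcn : ordq F r ≤ n)
    (H : ∀ T : End F (Fin n → F), LinearMap.det T = 1 → (∃ c : F, T ^ r = c • 1) →
      (∀ c : F, T ≠ c • 1) → Stab T a t) :
    (a = 1 ∧ 1 < ordq F r ∧ ordq F r = r - 1 ∧ n ≤ (n % ordq F r) * r) ∨
      (ordq F r ≤ a ∧ n % ordq F r = t * (a % ordq F r)) := by
  have hr : r.Prime := Fact.out
  have hrF : (r : F) ≠ 0 := natCast_ne_zero hrp
  have hn : 0 < n := by rw [hat]; positivity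
  have hfr : finrank F (Fin n → F) = n := by simp
  have hi := ordq_pos (F := F) hrp
  rcases Nat.lt_or_ge (ordq F r) 2 with h1 | h2
  · have h1 : ordq F r = 1 := by omega
    right
    rw [h1]
    exact ⟨ha, by simp [Nat.mod_one]⟩
  have hr1 : ¬ r ∣ Fintype.card F - 1 := by
    intro h
    have := (ordq_eq_one_iff hrp).2 h
    omega
  -- the extremal element
  obtain ⟨T, hT, hfix⟩ := exists_end_fix (F := F) hrp n
  have hT1 : T ≠ 1 := by
    intro h
    rw [h, sub_self, LinearMap.ker_zero, finrank_top, hfr] at hfix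
    have := Nat.mod_lt n hi
    omega
  obtain ⟨D, hD, σ, hσ⟩ := H T (det_eq_one_of_pow T hr hT hr1) ⟨1, by rw [hT, one_smul]⟩
    (not_scalar_of_ne_one hr1 hn T hT hT1)
  rcases Nat.lt_or_ge a (ordq F r) with hac | hca
  · left
    -- the element with a single block
    obtain ⟨T', hdet', hT', hT1', hfix'⟩ := exists_single (F := F) hrp h2 hcn
    obtain ⟨D', hD', σ', hσ'⟩ := H T' hdet' ⟨1, by rw [hT', one_smul]⟩
      (not_scalar_of_ne_one hr1 hn T' hT' hT1')
    have hex : ∃ j, σ' j ≠ j := by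
      by_contra hcon
      push Not at hcon
      apply hT1'
      have hle : ∀ j, D' j ≤ LinearMap.ker (T' - 1) := by
        intro j
        have hinv : IsInv T' (D' j) := isInv_of_map_eq (by rw [hσ' j, hcon j])
        obtain ⟨b, hb⟩ := inv_dim hrp T' hT' (D' j) hinv
        rw [hD'.finrank_eq j] at hb
        have hb0 : b = 0 := by
          rcases Nat.eq_zero_or_pos b with h | h
          · exact h
          · have : ordq F r * 1 ≤ ordq F r * b := Nat.mul_le_mul_left _ h
            omega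
        rw [hb0, mul_zero, add_zero] at hb
        have heq : D' j ⊓ LinearMap.ker (T' - 1) = D' j := by
          apply Submodule.eq_of_le_of_finrank_eq inf_le_left
          rw [← hb, hD'.finrank_eq j]
        rw [← heq]
        exact inf_le_right
      have htop : LinearMap.ker (T' - 1) = ⊤ := by
        rw [eq_top_iff, ← hD'.iSup_eq_top]
        exact iSup_le hle
      have h0 : T' - 1 = 0 := LinearMap.ker_eq_top.1 htop
      exact sub_eq_zero.1 h0
    obtain ⟨j, hj⟩ := hex
    have hob := orbit_bound hD' T' σ' hσ' hr hT' hj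
    rw [hfix'] at hob
    have hdvd := ordq_dvd_pred (F := F) hrp
    have hr2 : 2 ≤ r := hr.two_le
    have hle1 : ordq F r ≤ r - 1 := Nat.le_of_dvd (by omega) hdvd
    have hle2 : a * (r - 1) ≤ ordq F r := by omega
    have ha1 : a = 1 := by
      by_contra hne
      have h2a : 2 ≤ a := by omega
      have : 2 * (r - 1) ≤ a * (r - 1) := Nat.mul_le_mul_right _ h2a
      omega
    subst ha1
    have hceq : ordq F r = r - 1 := by omega
    refine ⟨rfl, by omega, hceq, ?_⟩
    have := le_mul_fix hD T σ hσ hr hrF hr1 hT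
    rw [hfix] at this
    have htn : t = n := by omega
    rw [htn, mul_comm] at this
    exact this
  · right
    refine ⟨hca, ?_⟩
    have hlt : finrank F (LinearMap.ker (T - 1)) < a := by
      rw [hfix]
      exact lt_of_lt_of_le (Nat.mod_lt n hi) hca
    have hσ1 := sigma_eq_one hD T σ hσ hr hT hlt
    have hinv : ∀ j, IsInv T (D j) := by
      intro j
      apply isInv_of_map_eq
      rw [hσ j, hσ1, Equiv.Perm.one_apply]
    choose y hy using fun j => inv_dim hrp T hT (D j) (hinv j)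
    have hsum := sum_finrank_inf_le hD.indep (LinearMap.ker (T - 1))
    rw [hfix] at hsum
    exact arI hi hat (fun j => finrank F ↥(D j ⊓ LinearMap.ker (T - 1))) y
      (fun j => by rw [← hy j, hD.finrank_eq j]) hsum

theorem main58 (hrp : r ≠ p) {a t : ℕ} (hat : n = a * t) (ha : 1 ≤ a) (ht : 2 ≤ t)
    (hΩ : r ∣ Nat.card {D : Fin t → Submodule F (Fin n → F) // Cfsg.Geo.IsMDecomposition a D} /
      t.factorial) :
    (∀ T : End F (Fin n → F), LinearMap.det T = 1 → (∃ c : F, T ^ r = c • 1) →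
      (∀ c : F, T ≠ c • 1) → Stab T a t) ↔
    ((a = 1 ∧ 1 < ordq F r ∧ ordq F r = r - 1 ∧ n ≤ (n % ordq F r) * r) ∨
      (ordq F r ≤ a ∧ n % ordq F r = t * (a % ordq F r))) := by
  constructor
  · exact fw hrp hat ha ht (ordq_le_of_dvd hrp hat ha ht hΩ)
  · rintro hR T hdet ⟨z, hz⟩ -
    exact bw hrp hat ha ht hR T hdet hz

end Cfsg.Agent.Lib.Helper25.Dec
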